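import Cfsg.Agent.Lib.QuadAct.FFFail

/-!
# Equivariant structure: a coprime group permuting the plane factors
-/

set_option autoImplicit false
set_option linter.unusedSectionVars false
set_option linter.unusedSimpArgs false
set_option linter.style.haveILetI false

open scoped commutatorElement
open Module

namespace Cfsg.Agent.Lib.QuadAct.FFEquiv

open Cfsg.Agent.Lib.QuadAct.FFBasic Cfsg.Agent.Lib.QuadAct.ThmA
open Cfsg.Agent.Lib.QuadAct.FFTrans Cfsg.Agent.Lib.QuadAct.FFTriple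
open Cfsg.Agent.Lib.QuadAct.FFGen Cfsg.Agent.Lib.QuadAct.FFPlane
open Cfsg.Agent.Lib.QuadAct.FFSL2 Cfsg.Agent.Lib.QuadAct.FFDicho
open Cfsg.Agent.Lib.QuadAct.FFMin
open Cfsg.Agent.Lib.QuadAct.FFQuot
open Cfsg.Agent.Lib.Core.Basic

universe u v w

section reindex

theorem noncommProd_univ_mulLeft {R : Type*} {β : Type*} [Group R] [Fintype R] [Monoid β] (z : R)
    (f : R → β) (h₁) (h₂) :
    Finset.univ.noncommProd (fun i => f (z * i)) h₁ = Finset.univ.noncommProd f h₂ := by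
  classical
  have h : (Finset.univ : Finset R).val.map (fun i => f (z * i)) = (Finset.univ : Finset R).val.map f := by
    have h3 : (Finset.univ : Finset R).map (Equiv.mulLeft z).toEmbedding = Finset.univ :=
      Finset.map_univ_equiv _
    have h4 := congrArg Finset.val h3
    rw [Finset.map_val] at h4
    conv_rhs => rw [← h4]
    rw [Multiset.map_map]
    rfl
  unfold Finset.noncommProd
  congr 1

end reindex

section matrix

variable {p : ℕ} [Fact p.Prime]

theorem matrix_pow_eq_one (hp : p = 2 ∨ p = 3) {A : Matrix (Fin 2) (Fin 2) (ZMod p)} {N : ℕ}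
    (hA : A ^ N = 1) (hN : N.Coprime 6) : A = 1 := by
  have hN0 : N ≠ 0 := by
    rintro rfl
    norm_num at hN
  let u : (Matrix (Fin 2) (Fin 2) (ZMod p))ˣ := Units.ofPowEqOne A N hA hN0
  have hu : (u : Matrix (Fin 2) (Fin 2) (ZMod p)) = A := rfl
  have h1 : u ^ N = 1 := by
    apply Units.ext
    rw [Units.val_pow_eq_pow_val, hu, hA, Units.val_one]
  have hc : Nat.card (Matrix.GeneralLinearGroup (Fin 2) (ZMod p)) ∣ 48 := by
    rw [Matrix.card_GL_field, ZMod.card]
    rcases hp with rfl | rfl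
    · decide
    · decide
  have h2 : u ^ 48 = 1 := by
    obtain ⟨k, hk⟩ := hc
    rw [hk, pow_mul]
    have : u ^ Nat.card (Matrix.GeneralLinearGroup (Fin 2) (ZMod p)) = 1 := pow_card_eq_one'
    rw [this, one_pow]
  have h3 : orderOf u ∣ Nat.gcd N 48 := Nat.dvd_gcd (orderOf_dvd_of_pow_eq_one h1) (orderOf_dvd_of_pow_eq_one h2)
  have h4 : Nat.gcd N 48 = 1 := by
    have h5 : N.Coprime 2 := Nat.Coprime.coprime_dvd_right (by norm_num) hN
    have h6 : N.Coprime 3 := Nat.Coprime.coprime_dvd_right (by norm_num) hN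
    have h7 : N.Coprime (2 ^ 4 * 3) := Nat.Coprime.mul_right (Nat.Coprime.pow_right _ h5) h6
    exact h7
  rw [h4, Nat.dvd_one, orderOf_eq_one_iff] at h3
  rw [← hu, h3, Units.val_one]

end matrix

variable {p : ℕ} [Fact p.Prime] {Γ : Type u} [Group Γ] [Finite Γ] {M : Type v} [AddCommGroup M]
  [Module (ZMod p) M] [Finite M] {R : Type w} [Group R] [Finite R]
  {ρ : Γ →* Module.End (ZMod p) M} {τ : R →* Module.End (ZMod p) M} {θ : R → Γ → Γ}

/-- Equivariance of the action of `R` on `Γ` and on `M`. -/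
structure Equi (ρ : Γ →* Module.End (ZMod p) M) (τ : R →* Module.End (ZMod p) M) (θ : R → Γ → Γ) :
    Prop where
  hρ : Function.Injective ρ
  itw : ∀ x γ m, ρ (θ x γ) (τ x m) = τ x (ρ γ m)

namespace Equi

variable (h : Equi ρ τ θ)

include h

theorem theta_mul (x : R) (g₁ g₂ : Γ) : θ x (g₁ * g₂) = θ x g₁ * θ x g₂ := by
  apply h.hρ
  ext m
  have e : m = τ x (τ x⁻¹ m) := (rho_apply_inv_cancel x m).symm
  rw [e, h.itw, map_mul, map_mul, Module.End.mul_apply, Module.End.mul_apply, h.itw, h.itw]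

theorem theta_comp (x y : R) (g : Γ) : θ (x * y) g = θ x (θ y g) := by
  apply h.hρ
  ext m
  have e : m = τ (x * y) (τ (x * y)⁻¹ m) := (rho_apply_inv_cancel (x * y) m).symm
  rw [e, h.itw]
  rw [map_mul, Module.End.mul_apply, Module.End.mul_apply, h.itw, h.itw]

theorem theta_one (g : Γ) : θ 1 g = g := by
  apply h.hρ
  ext m
  have := h.itw 1 g m
  rw [map_one, Module.End.one_apply, Module.End.one_apply] at this
  exact this

theorem theta_inv_cancel (x : R) (g : Γ) : θ x⁻¹ (θ x g) = g := by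
  rw [← h.theta_comp, inv_mul_cancel, h.theta_one]

theorem theta_cancel_inv (x : R) (g : Γ) : θ x (θ x⁻¹ g) = g := by
  rw [← h.theta_comp, mul_inv_cancel, h.theta_one]

/-- The action as an automorphism. -/
def thetaE (x : R) : Γ ≃* Γ where
  toFun := θ x
  invFun := θ x⁻¹
  left_inv := h.theta_inv_cancel x
  right_inv := h.theta_cancel_inv x
  map_mul' := h.theta_mul x

theorem thetaE_apply (x : R) (g : Γ) : h.thetaE x g = θ x g := rfl

theorem theta_inv (x : R) (g : Γ) : θ x g⁻¹ = (θ x g)⁻¹ := map_inv (h.thetaE x) g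

theorem tv_theta {a : Γ} {e : M} {f : M →ₗ[ZMod p] ZMod p} (hT : TV ρ a e f) (x : R) :
    TV ρ (θ x a) (τ x e) (f.comp (τ x⁻¹)) := by
  refine ⟨fun w => ?_, ?_, ?_, ?_⟩
  · have e1 : w = τ x (τ x⁻¹ w) := (rho_apply_inv_cancel x w).symm
    conv_lhs => rw [e1]
    rw [h.itw, hT.apply, map_add, map_smul, ← e1]
    rfl
  · show f (τ x⁻¹ (τ x e)) = 0
    rw [rho_inv_apply_cancel]
    exact hT.fe
  · intro h0
    apply hT.e0
    have := rho_inv_apply_cancel (ρ := τ) x e
    rw [h0, map_zero] at this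
    exact this.symm
  · obtain ⟨u, hu⟩ := hT.f1
    refine ⟨τ x u, ?_⟩
    show f (τ x⁻¹ (τ x u)) = 1
    rw [rho_inv_apply_cancel, hu]

variable {O : Subgroup Γ} (hO : ∀ x, ∀ z ∈ O, θ x z ∈ O)

include hO

theorem ctx_theta {a z : Γ} {e : M} {f : M →ₗ[ZMod p] ZMod p} (C : Ctx ρ O a e f z) (x : R) :
    Ctx ρ O (θ x a) (τ x e) (f.comp (τ x⁻¹)) (θ x z) := by
  refine ⟨C.hρ, C.hOn, C.hOc, h.tv_theta C.tv x, hO x z C.hx, fun hne => C.hne ?_⟩
  apply (h.thetaE x).injective
  rw [map_mul, map_mul, map_inv]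
  exact hne

theorem cls_map (a : Γ) (x : R) : (cls O a).map (h.thetaE x).toMonoidHom = cls O (θ x a) := by
  apply le_antisymm
  · rw [cls, MonoidHom.map_closure, Subgroup.closure_le]
    rintro _ ⟨_, ⟨z, hz, rfl⟩, rfl⟩
    refine Subgroup.subset_closure ⟨θ x z, hO x z hz, ?_⟩
    show h.thetaE x (z * a * z⁻¹) = _
    rw [map_mul, map_mul, map_inv]
    rfl
  · rw [cls, Subgroup.closure_le]
    rintro _ ⟨z, hz, rfl⟩
    refine ⟨θ x⁻¹ z * a * (θ x⁻¹ z)⁻¹, conj_mem_cls a (hO _ z hz), ?_⟩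
    show h.thetaE x (θ x⁻¹ z * a * (θ x⁻¹ z)⁻¹) = _
    rw [map_mul, map_mul, map_inv, h.thetaE_apply, h.thetaE_apply, h.theta_cancel_inv]

theorem mem_cls_theta {a y : Γ} (hy : y ∈ cls O a) (x : R) : θ x y ∈ cls O (θ x a) := by
  rw [← h.cls_map hO]
  exact ⟨y, hy, rfl⟩

/-- The stabilizer of a class. -/
def stabS (a : Γ) : Subgroup R where
  carrier := {x | cls O (θ x a) = cls O a}
  one_mem' := by
    show cls O (θ 1 a) = cls O a
    rw [h.theta_one]
  mul_mem' := by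
    intro x y hx hy
    show cls O (θ (x * y) a) = cls O a
    have hx' : cls O (θ x a) = cls O a := hx
    have hy' : cls O (θ y a) = cls O a := hy
    rw [h.theta_comp, ← h.cls_map hO, hy', h.cls_map hO, hx']
  inv_mem' := by
    intro x hx
    show cls O (θ x⁻¹ a) = cls O a
    have hx' : cls O (θ x a) = cls O a := hx
    rw [← h.cls_map hO, ← hx', h.cls_map hO, h.theta_inv_cancel, hx']

variable {a z : Γ} {e : M} {f : M →ₗ[ZMod p] ZMod p} (C : Ctx ρ O a e f z)

include C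

theorem pl_theta (x : R) :
    pl (p := p) (τ x e) (ρ (θ x z) (τ x e)) = (pl (p := p) e (ρ z e)).map (τ x) := by
  rw [h.itw, pl, pl, Submodule.map_span, Set.image_pair]

theorem tau_mem_pl {π : M} (hπ : π ∈ pl (p := p) e (ρ z e)) (x : R) :
    τ x π ∈ pl (p := p) (τ x e) (ρ (θ x z) (τ x e)) := by
  rw [h.pl_theta hO C]
  exact ⟨π, hπ, rfl⟩

theorem tau_fix_pl {x : R} (hx : cls O (θ x a) = cls O a) {N : ℕ} (hN : x ^ N = 1)
    (hN6 : N.Coprime 6) : ∀ π ∈ pl (p := p) e (ρ z e), τ x π = π := by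
  have C' := h.ctx_theta hO C x
  have hpl : pl (p := p) (τ x e) (ρ (θ x z) (τ x e)) = pl (p := p) e (ρ z e) := by
    rw [← comm_eq_pl C', hx, comm_eq_pl C]
  have hP : ∀ π ∈ pl (p := p) e (ρ z e), τ x π ∈ pl (p := p) e (ρ z e) := by
    intro π hπ
    rw [← hpl]
    exact h.tau_mem_pl hO C hπ x
  let T : Module.End (ZMod p) (pl (p := p) e (ρ z e)) := (τ x).restrict hP
  have hT : T ^ N = 1 := by
    rw [Module.End.pow_restrict N hP]
    apply LinearMap.ext
    intro π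
    apply Subtype.ext
    show ((τ x) ^ N) (π : M) = π
    rw [← map_pow, hN, map_one]
    rfl
  have hA : (LinearMap.toMatrixAlgEquiv (Ctx.basis C) T) ^ N = 1 := by
    rw [← map_pow, hT, map_one]
  have hA1 := matrix_pow_eq_one C.hp hA hN6
  have hT1 : T = 1 := by
    apply (LinearMap.toMatrixAlgEquiv (Ctx.basis C)).injective
    rw [hA1, map_one]
  intro π hπ
  have := congrArg (fun S : Module.End (ZMod p) (pl (p := p) e (ρ z e)) => ((S ⟨π, hπ⟩ : pl (p := p) e (ρ z e)) : M)) hT1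
  exact this

theorem theta_fix {x : R} (hx : cls O (θ x a) = cls O a) {N : ℕ} (hN : x ^ N = 1)
    (hN6 : N.Coprime 6) {y : Γ} (hy : y ∈ cls O a) : θ x y = y := by
  have h1 := h.tau_fix_pl hO C hx hN hN6
  have h2 : θ x y ∈ cls O a := by
    rw [← hx]
    exact h.mem_cls_theta hO hy x
  apply C.eq_of_agree
  · intro π hπ
    conv_lhs => rw [← h1 π hπ]
    rw [h.itw, h1 _ (C.pl_inv hy hπ)]
  · intro c hc
    rw [hc _ h2, hc _ hy]

variable (hR6 : (Nat.card R).Coprime 6)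

include hR6

theorem comm_theta {y : Γ} (hy : y ∈ cls O a) (x x' : R) : Commute (θ x y) (θ x' y) := by
  rcases dichotomy (h.ctx_theta hO C x) (h.ctx_theta hO C x') with ⟨-, h1⟩ | ⟨h1, -⟩
  · have h2 : cls O (θ (x⁻¹ * x') a) = cls O a := by
      rw [h.theta_comp, ← h.cls_map hO, h1, h.cls_map hO, h.theta_inv_cancel]
    have h3 := h.theta_fix hO C h2 pow_card_eq_one' hR6 hy
    have h4 : θ x' y = θ x y := by
      have e1 : x' = x * (x⁻¹ * x') := by group
      calc θ x' y = θ (x * (x⁻¹ * x')) y := by rw [← e1]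
        _ = θ x (θ (x⁻¹ * x') y) := h.theta_comp _ _ _
        _ = θ x y := by rw [h3]
    rw [h4]
  · exact h1 _ (h.mem_cls_theta hO hy x) _ (h.mem_cls_theta hO hy x')

theorem act_pl_of_not_stab {x : R} (hx : cls O (θ x a) ≠ cls O a) {y : Γ} (hy : y ∈ cls O a)
    {π : M} (hπ : π ∈ pl (p := p) e (ρ z e)) : ρ (θ x y) π = π := by
  rcases dichotomy C (h.ctx_theta hO C x) with ⟨-, h1⟩ | ⟨-, h1, -⟩
  · exact absurd h1 hx
  · rw [comm_eq_pl C] at h1
    exact h1 hπ _ (h.mem_cls_theta hO hy x)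

/-- Diagonal elements. -/
theorem exists_diag (hRΓ : (Nat.card R).Coprime (Nat.card Γ)) {y₀ : Γ} (hy₀ : y₀ ∈ cls O a) :
    ∃ d : Γ, (∀ w, θ w d = d) ∧ ∀ π ∈ pl (p := p) e (ρ z e), ρ d π = ρ y₀ π := by
  classical
  letI := Fintype.ofFinite R
  set X₁ := h.stabS hO a with hX₁
  set m := Nat.card X₁ with hm
  have hm1 : m ∣ Nat.card R := Subgroup.card_subgroup_dvd_card X₁
  have hmc : (Nat.card (cls O a)).Coprime m :=
    (Nat.Coprime.coprime_dvd_left hm1 (Nat.Coprime.coprime_dvd_right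
      (Subgroup.card_subgroup_dvd_card (cls O a)) hRΓ)).symm
  obtain ⟨⟨y, hy⟩, hyy⟩ := (powCoprime hmc).surjective ⟨y₀, hy₀⟩
  have hyy' : y ^ m = y₀ := congrArg Subtype.val hyy
  let F : R → Γ := fun x => θ x y
  have hcomm : ((Finset.univ : Finset R) : Set R).Pairwise (Function.onFun Commute F) :=
    fun i _ j _ _ => h.comm_theta hO C hR6 hy i j
  refine ⟨Finset.univ.noncommProd F hcomm, ?_, ?_⟩
  · intro w
    have e1 := Finset.map_noncommProd (Finset.univ : Finset R) F hcomm (h.thetaE w)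
    have e2 : h.thetaE w (Finset.univ.noncommProd F hcomm) = θ w (Finset.univ.noncommProd F hcomm) := rfl
    rw [← e2, e1]
    have e3 : (fun i => h.thetaE w (F i)) = fun i => F (w * i) := by
      funext i
      show θ w (θ i y) = θ (w * i) y
      rw [h.theta_comp]
    simp only [e3]
    exact noncommProd_univ_mulLeft w F _ _
  · intro π hπ
    have key : ∀ s : Finset R, ∀ hs, ∀ π ∈ pl (p := p) e (ρ z e),
        ρ (s.noncommProd F hs) π = ρ (y ^ (s.filter (· ∈ X₁)).card) π := by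
      intro s
      induction s using Finset.induction_on with
      | empty =>
        intro hs π hπ
        simp
      | insert x s hxs ih =>
        intro hs π hπ
        rw [Finset.noncommProd_insert_of_notMem _ _ _ _ hxs, map_mul, Module.End.mul_apply,
          ih (hs.mono (by simp)) π hπ]
        by_cases hx : x ∈ X₁
        · have hx' : cls O (θ x a) = cls O a := hx
          rw [Finset.filter_insert, if_pos hx, Finset.card_insert_of_notMem (by simp [hxs]),
            pow_succ', map_mul, Module.End.mul_apply]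
          have h3 : F x = y := h.theta_fix hO C hx' pow_card_eq_one' hR6 hy
          rw [h3]
        · have hx' : cls O (θ x a) ≠ cls O a := hx
          rw [Finset.filter_insert, if_neg hx]
          exact h.act_pl_of_not_stab hO C hR6 hx' hy (C.pl_inv (Subgroup.pow_mem _ hy _) hπ)
    have hc : ((Finset.univ : Finset R).filter (· ∈ X₁)).card = m := by
      rw [hm, Nat.card_eq_fintype_card, Fintype.card_subtype]
    rw [key _ _ π hπ, hc, hyy']

section norm

variable [Fintype R]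

/-- The norm. -/
noncomputable def NN (τ : R →* Module.End (ZMod p) M) : Module.End (ZMod p) M := ∑ x : R, τ x

omit h hO C hR6 in
theorem NN_apply (m : M) : NN τ m = ∑ x : R, τ x m := by
  simp [NN, LinearMap.sum_apply]

omit h hO C hR6 in
theorem NN_fix (w : R) (m : M) : τ w (NN τ m) = NN τ m := by
  rw [NN_apply, map_sum]
  refine Fintype.sum_equiv (Equiv.mulLeft w) _ _ fun x => ?_
  simp

omit hO C hR6 in
theorem NN_comm {d : Γ} (hd : ∀ w, θ w d = d) (m : M) : ρ d (NN τ m) = NN τ (ρ d m) := by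
  rw [NN_apply, NN_apply, map_sum]
  refine Finset.sum_congr rfl fun x _ => ?_
  have := h.itw x d m
  rwa [hd] at this

/-- The norm is injective on the plane. -/
theorem NN_inj (hRΓ : (Nat.card R).Coprime (Nat.card Γ)) {π : M}
    (hπ : π ∈ pl (p := p) e (ρ z e)) (h0 : NN τ π = 0) : π = 0 := by
  classical
  set X₁ := h.stabS hO a with hX₁
  have hsum := NN_apply (τ := τ) π
  rw [h0, ← Finset.sum_filter_add_sum_filter_not Finset.univ (· ∈ X₁)] at hsum
  have h1 : ∑ x ∈ Finset.univ.filter (· ∈ X₁), τ x π = ∑ x ∈ Finset.univ.filter (· ∈ X₁), π := by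
    refine Finset.sum_congr rfl fun x hx => ?_
    have hx' : cls O (θ x a) = cls O a := (Finset.mem_filter.mp hx).2
    exact h.tau_fix_pl hO C hx' pow_card_eq_one' hR6 π hπ
  rw [h1, Finset.sum_const] at hsum
  have h2 : ∑ x ∈ Finset.univ.filter (fun x => ¬ x ∈ X₁), τ x π ∈ fix ρ (cls O a) := by
    refine Submodule.sum_mem _ fun x hx => ?_
    have hx' : cls O (θ x a) ≠ cls O a := (Finset.mem_filter.mp hx).2
    rcases dichotomy C (h.ctx_theta hO C x) with ⟨-, h3⟩ | ⟨-, -, h3⟩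
    · exact absurd h3 hx'
    · apply h3
      rw [comm_eq_pl (h.ctx_theta hO C x)]
      exact h.tau_mem_pl hO C hπ x
  set k := (Finset.univ.filter (· ∈ X₁)).card with hk
  have h3 : k • π ∈ fix ρ (cls O a) := by
    have h4 : k • π = - ∑ x ∈ Finset.univ.filter (fun x => ¬ x ∈ X₁), τ x π :=
      eq_neg_of_add_eq_zero_left hsum.symm
    rw [h4]
    exact Submodule.neg_mem _ h2
  have h4 : k • π ∈ pl (p := p) e (ρ z e) := Submodule.smul_of_tower_mem _ _ hπ
  have h5 : k • π = 0 := by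
    have : k • π ∈ pl (p := p) e (ρ z e) ⊓ fix ρ (cls O a) := ⟨h4, h3⟩
    rw [C.inf_fix_eq_bot] at this
    exact this
  -- coprimality
  have hkc : k ∣ Nat.card R := by
    have : k = Nat.card X₁ := by
      rw [Nat.card_eq_fintype_card, Fintype.card_subtype]
    rw [this]
    exact Subgroup.card_subgroup_dvd_card X₁
  have hap : a ^ p = 1 := Cfsg.Agent.Lib.QuadAct.Sections.pow_char_eq_one C.hρ C.tv.quad
  have ha1 : a ≠ 1 := by
    rintro rfl
    apply C.hne
    group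
  have hord : orderOf a = p := orderOf_eq_prime hap ha1
  have hpΓ : p ∣ Nat.card Γ := by
    rw [← hord]
    exact orderOf_dvd_natCard a
  have hkp : k.Coprime p := Nat.Coprime.coprime_dvd_left hkc (Nat.Coprime.coprime_dvd_right hpΓ hRΓ)
  have h6 : (k : ZMod p) ≠ 0 := by
    intro h7
    rw [ZMod.natCast_eq_zero_iff] at h7
    have := Nat.Coprime.eq_one_of_dvd hkp.symm h7
    exact (Fact.out : p.Prime).one_lt.ne' this
  have h7 : (k : ZMod p) • π = 0 := by
    rw [Nat.cast_smul_eq_nsmul]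
    exact h5
  exact (smul_eq_zero.mp h7).resolve_left h6

end norm

end Equi

section factor

variable {O : Subgroup Γ} {a x : Γ} {e : M} {f : M →ₗ[ZMod p] ZMod p}

/-- A diagonal element induces the same automorphism as the element it restricts to. -/
theorem diag_conj {T : Set Γ} (hgen : Subgroup.closure T = ⊤) (hT : ∀ c ∈ T, ∃ e₂ f₂, TV ρ c e₂ f₂)
    (hS : Subgroup.centralizer (O : Set Γ) ≤ O) (C : Ctx ρ O a e f x) {d y : Γ} (hy : y ∈ cls O a)
    (hd : ∀ π ∈ pl (p := p) e (ρ x e), ρ d π = ρ y π) {t : Γ} (ht : t ∈ cls O a) :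
    d * t * d⁻¹ = y * t * y⁻¹ := by
  have hs : y⁻¹ * d ∈ stab ρ (FFDicho.comm ρ (cls O a)) := by
    intro π hπ
    rw [comm_eq_pl C] at hπ
    rw [map_mul, Module.End.mul_apply, hd π hπ, rho_inv_apply_cancel]
  have h1 := cls_comm_stab hgen hT hS C ht hs
  have h2 : d = y * (y⁻¹ * d) := by group
  calc d * t * d⁻¹ = y * ((y⁻¹ * d) * t) * (y⁻¹ * d)⁻¹ * y⁻¹ := by group
    _ = y * (t * (y⁻¹ * d)) * (y⁻¹ * d)⁻¹ * y⁻¹ := by rw [h1]
    _ = _ := by group

/-- A subgroup containing the fixed points and a transvection contains its class. -/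
theorem cls_le (h : Equi ρ τ θ) (hO : ∀ x, ∀ z ∈ O, θ x z ∈ O)
    (hR6 : (Nat.card R).Coprime 6) (hRΓ : (Nat.card R).Coprime (Nat.card Γ))
    {T : Set Γ} (hgen : Subgroup.closure T = ⊤) (hT : ∀ c ∈ T, ∃ e₂ f₂, TV ρ c e₂ f₂)
    (hS : Subgroup.centralizer (O : Set Γ) ≤ O) (C : Ctx ρ O a e f x) {W : Subgroup Γ}
    (hW : ∀ d, (∀ w, θ w d = d) → d ∈ W) (ha : a ∈ W) : cls O a ≤ W := by
  have hn := cls_normal hgen hT hS C
  rw [cls, Subgroup.closure_le]
  rintro _ ⟨z, hz, rfl⟩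
  have hz' : z ∈ cls O a ⊔ stab ρ (FFDicho.comm ρ (cls O a)) := by
    rw [cls_sup_stab hgen hT hS C]
    trivial
  rw [Subgroup.mem_sup_of_normal_left] at hz'
  obtain ⟨y, hy, s, hs, rfl⟩ := hz'
  have h1 := cls_comm_stab hgen hT hS C (self_mem_cls O a) hs
  have h2 : (y * s) * a * (y * s)⁻¹ = y * a * y⁻¹ := by
    calc (y * s) * a * (y * s)⁻¹ = y * (s * a) * s⁻¹ * y⁻¹ := by group
      _ = y * (a * s) * s⁻¹ * y⁻¹ := by rw [h1]
      _ = _ := by group
  rw [h2]
  obtain ⟨d, hd, hdπ⟩ := h.exists_diag hO C hR6 hRΓ hy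
  rw [← diag_conj hgen hT hS C hy hdπ (self_mem_cls O a)]
  exact W.mul_mem (W.mul_mem (hW d hd) ha) (W.inv_mem (hW d hd))

end factor

section family

variable {ρ : Γ →* Module.End (ZMod p) M}

/-- Some best offender of a generating family meets a given class. -/
theorem exists_tv_mem (hS1 : Subgroup.centralizer (Cfsg.pPrimeCore p Γ : Set Γ) ≤ Cfsg.pPrimeCore p Γ)
    {𝓑 : Set (Subgroup Γ)} (h𝓑 : ∀ B ∈ 𝓑, Best ρ B) (hsup : sSup 𝓑 = ⊤)
    {a x : Γ} {e : M} {f : M →ₗ[ZMod p] ZMod p} (C : Ctx ρ (Cfsg.pPrimeCore p Γ) a e f x)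
    (hS : Subgroup.closure {c : Γ | ∃ e f, TV ρ c e f} = ⊤) :
    ∃ B ∈ 𝓑, ∃ t ∈ B, ∃ (e₂ : M) (f₂ : M →ₗ[ZMod p] ZMod p) (x₂ : Γ),
      Ctx ρ (Cfsg.pPrimeCore p Γ) t e₂ f₂ x₂ ∧ t ∈ cls (Cfsg.pPrimeCore p Γ) a := by
  by_contra hcon
  push Not at hcon
  set O := Cfsg.pPrimeCore p Γ with hO
  have hle : ∀ B ∈ 𝓑, B ≤ stab ρ (FFDicho.comm ρ (cls O a)) := by
    intro B hB
    obtain ⟨k, D, hD, -, hsupD⟩ := exists_decomp C.hρ hS1 (h𝓑 B hB)
    rw [← hsupD]
    refine iSup_le fun i => ?_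
    obtain ⟨t, hz, e₂, f₂, hT⟩ := exists_TV C.hρ hS1 (hD i).2
    rw [hz, Subgroup.zpowers_le]
    have htB : t ∈ B := (hD i).1 (by rw [hz]; exact Subgroup.mem_zpowers t)
    obtain ⟨x₂, C₂⟩ := exists_ctx C.hρ C.hOn C.hOc hS1 hT
    rcases dichotomy C C₂ with ⟨h1, -⟩ | ⟨-, h1, -⟩
    · exact absurd h1 (hcon B hB t htB e₂ f₂ x₂ C₂)
    · intro π hπ
      exact h1 hπ t (self_mem_cls O t)
  have htop : (⊤ : Subgroup Γ) ≤ stab ρ (FFDicho.comm ρ (cls O a)) := by
    rw [← hsup]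
    exact sSup_le hle
  have h1 : a ∈ cls O a ⊓ stab ρ (FFDicho.comm ρ (cls O a)) := ⟨self_mem_cls O a, htop trivial⟩
  rw [cls_inf_stab C] at h1
  apply C.hne
  rw [Subgroup.mem_bot.mp h1]
  group

end family

end Cfsg.Agent.Lib.QuadAct.FFEquiv
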