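import Cfsg.Agent.Lib.QuadAct.FFDicho
import Cfsg.Agent.Lib.Subnormal.Basic

/-!
# Two subnormal subgroups acting irreducibly on their commutator modules
-/

set_option autoImplicit false
set_option linter.unusedSectionVars false
set_option linter.unusedSimpArgs false
set_option linter.style.haveILetI false

open scoped commutatorElement Pointwise
open Module

namespace Cfsg.Agent.Lib.QuadAct.FFPair

open Cfsg.Agent.Lib.QuadAct.FFBasic Cfsg.Agent.Lib.QuadAct.ThmA
open Cfsg.Agent.Lib.QuadAct.FFTrans Cfsg.Agent.Lib.QuadAct.FFDicho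
open Cfsg.Agent.Lib.Core.Basic Cfsg.Agent.Lib.Subnormal.Basic
open Cfsg.Agent.Lib.Coprime.Action

universe u v

variable {p : ℕ} [Fact p.Prime] {Γ : Type u} [Group Γ] [Finite Γ] {M : Type v} [AddCommGroup M]
  [Module (ZMod p) M] [Finite M] {ρ : Γ →* Module.End (ZMod p) M}

/-- Invariant submodules. -/
def Inv (ρ : Γ →* Module.End (ZMod p) M) (A : Subgroup Γ) (s : Submodule (ZMod p) M) : Prop :=
  ∀ g ∈ A, ∀ u ∈ s, ρ g u ∈ s

/-- Irreducibility on the commutator module. -/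
def Irr (ρ : Γ →* Module.End (ZMod p) M) (A : Subgroup Γ) : Prop :=
  ∀ s : Submodule (ZMod p) M, s ≤ comm ρ A → Inv ρ A s → s = ⊥ ∨ s = comm ρ A

theorem sub_mem_comm {A : Subgroup Γ} {g : Γ} (hg : g ∈ A) (w : M) : ρ g w - w ∈ comm ρ A :=
  Submodule.subset_span ⟨g, hg, w, rfl⟩

theorem comm_mono {A B : Subgroup Γ} (h : A ≤ B) : comm ρ A ≤ comm ρ B :=
  Submodule.span_mono (by
    rintro _ ⟨g, hg, w, rfl⟩
    exact ⟨g, h hg, w, rfl⟩)

theorem inv_comm (A : Subgroup Γ) : Inv ρ A (comm ρ A) := by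
  intro g hg u hu
  have h1 : ρ g u = (ρ g u - u) + u := by abel
  rw [h1]
  refine Submodule.add_mem _ (sub_mem_comm hg u) hu

theorem inv_of_forall {A : Subgroup Γ} {s : Submodule (ZMod p) M}
    (h : ∀ g ∈ A, ∀ u ∈ s, ρ g u - u ∈ s) : Inv ρ A s := by
  intro g hg u hu
  have h1 : ρ g u = (ρ g u - u) + u := by abel
  rw [h1]
  exact Submodule.add_mem _ (h g hg u hu) hu

theorem quad_of {g : Γ} {s : Submodule (ZMod p) M} (h1 : ∀ m, ρ g m - m ∈ s)
    (h2 : ∀ u ∈ s, ρ g u = u) : Quad (ρ g) := fun m => h2 _ (h1 m)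

/-- A subnormal subgroup acting quadratically is trivial. -/
theorem eq_bot_of_quad (hρ : Function.Injective ρ) (hO : Cfsg.pCore p Γ = ⊥) {K : Subgroup Γ}
    (hK : SN K ⊤) (hq : ∀ g ∈ K, Quad (ρ g)) : K = ⊥ := by
  have hp : IsPGroup p K := by
    rintro ⟨k, hk⟩
    refine ⟨1, ?_⟩
    apply Subtype.ext
    have := Cfsg.Agent.Lib.QuadAct.Sections.pow_char_eq_one hρ (hq k hk)
    simpa using this
  have h := le_pCore_of_isSubnormal (isSubnormal_iff_SN_top.mpr hK) hp
  rwa [hO, le_bot_iff] at h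

section conj

theorem comm_conj (A : Subgroup Γ) (g : Γ) :
    comm ρ (MulAut.conj g • A) = (comm ρ A).map (ρ g) := by
  apply le_antisymm
  · refine Submodule.span_le.mpr ?_
    rintro _ ⟨c, hc, w, rfl⟩
    rw [mem_conj] at hc
    refine ⟨ρ (g⁻¹ * c * g) (ρ g⁻¹ w) - ρ g⁻¹ w, sub_mem_comm hc _, ?_⟩
    show ρ g _ = _
    rw [map_sub, rho_apply_inv_cancel, ← Module.End.mul_apply, ← Module.End.mul_apply, ← map_mul, ← map_mul]
    congr 2
    group
  · rw [FFDicho.comm, Submodule.map_span, Submodule.span_le]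
    rintro _ ⟨_, ⟨a, ha, w, rfl⟩, rfl⟩
    have h1 : ρ g (ρ a w - w) = ρ (g * a * g⁻¹) (ρ g w) - ρ g w := by
      rw [map_sub, ← Module.End.mul_apply, ← Module.End.mul_apply, ← map_mul, ← map_mul]
      congr 2
      group
    show ρ g (ρ a w - w) ∈ _
    rw [h1]
    exact sub_mem_comm (conj_mem_conj ha) _

theorem map_map_inv (s : Submodule (ZMod p) M) (g : Γ) : (s.map (ρ g⁻¹)).map (ρ g) = s := by
  rw [← Submodule.map_comp]
  have : (ρ g).comp (ρ g⁻¹) = LinearMap.id := by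
    apply LinearMap.ext
    intro m
    exact rho_apply_inv_cancel g m
  rw [this, Submodule.map_id]

theorem irr_conj {A : Subgroup Γ} (h : Irr ρ A) (g : Γ) : Irr ρ (MulAut.conj g • A) := by
  intro s hs hinv
  rw [comm_conj] at hs ⊢
  have h1 : s.map (ρ g⁻¹) ≤ comm ρ A := by
    rintro _ ⟨u, hu, rfl⟩
    obtain ⟨m, hm, rfl⟩ := hs hu
    show ρ g⁻¹ (ρ g m) ∈ _
    rw [rho_inv_apply_cancel]
    exact hm
  have h2 : Inv ρ A (s.map (ρ g⁻¹)) := by
    rintro a ha _ ⟨u, hu, rfl⟩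
    refine ⟨ρ (g * a * g⁻¹) u, hinv _ (conj_mem_conj ha) u hu, ?_⟩
    show ρ g⁻¹ (ρ (g * a * g⁻¹) u) = ρ a (ρ g⁻¹ u)
    rw [← Module.End.mul_apply, ← Module.End.mul_apply, ← map_mul, ← map_mul]
    congr 2
    group
  rcases h _ h1 h2 with h3 | h3
  · left
    rw [← map_map_inv (ρ := ρ) s g, h3, Submodule.map_bot]
  · right
    rw [← map_map_inv (ρ := ρ) s g, h3]

theorem card_map_rho (s : Submodule (ZMod p) M) (g : Γ) : Nat.card (s.map (ρ g)) = Nat.card s := by
  symm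
  refine Nat.card_congr (Equiv.ofBijective (fun u : s => (⟨ρ g u, u, u.2, rfl⟩ : s.map (ρ g))) ⟨?_, ?_⟩)
  · intro u v huv
    have h1 := congrArg (fun x : s.map (ρ g) => ρ g⁻¹ (x : M)) huv
    simp only [rho_inv_apply_cancel] at h1
    exact Subtype.ext h1
  · rintro ⟨_, u, hu, rfl⟩
    exact ⟨⟨u, hu⟩, rfl⟩

theorem eq_of_le_of_card {s t : Submodule (ZMod p) M} (h : s ≤ t) (hc : Nat.card s = Nat.card t) :
    s = t := by
  apply le_antisymm h
  have hinj : Function.Injective (Submodule.inclusion h) := Submodule.inclusion_injective h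
  have hb := hinj.bijective_of_nat_card_le hc.ge
  intro x hx
  obtain ⟨y, hy⟩ := hb.2 ⟨x, hx⟩
  have : (y : M) = x := congrArg Subtype.val hy
  rw [← this]
  exact y.2

theorem conj_top (g : Γ) : MulAut.conj g • (⊤ : Subgroup Γ) = ⊤ := by
  have h := conj_mono (g := g) (le_top : MulAut.conj g⁻¹ • (⊤ : Subgroup Γ) ≤ ⊤)
  rw [conj_conj_inv] at h
  exact top_le_iff.mp h

end conj

/-- The hypotheses on one subgroup. -/
structure Good (ρ : Γ →* Module.End (ZMod p) M) (A : Subgroup Γ) : Prop where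
  sn : SN A ⊤
  irr : Irr ρ A
  card : 2 < Nat.card A

theorem Good.conj {A : Subgroup Γ} (h : Good ρ A) (g : Γ) : Good ρ (MulAut.conj g • A) := by
  refine ⟨?_, irr_conj h.irr g, ?_⟩
  · have := h.sn.conj g
    rwa [conj_top] at this
  · rw [card_conj]
    exact h.card

theorem Good.ne_bot {A : Subgroup Γ} (h : Good ρ A) : A ≠ ⊥ := by
  rintro rfl
  have := h.card
  rw [Subgroup.card_bot] at this
  omega

/-- The conclusion. -/
def Concl (ρ : Γ →* Module.End (ZMod p) M) (A B : Subgroup Γ) : Prop :=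
  (∀ a ∈ A, ∀ b ∈ B, a * b = b * a) ∧ A ⊓ B = ⊥ ∧ comm ρ A ⊓ comm ρ B = ⊥

theorem Concl.symm {A B : Subgroup Γ} (h : Concl ρ A B) : Concl ρ B A :=
  ⟨fun b hb a ha => (h.1 a ha b hb).symm, by rw [inf_comm]; exact h.2.1, by rw [inf_comm]; exact h.2.2⟩

/-- The fixed points on the commutator module. -/
theorem comm_inf_fix (hρ : Function.Injective ρ) (hO : Cfsg.pCore p Γ = ⊥) {A : Subgroup Γ}
    (hA : Good ρ A) : comm ρ A ⊓ fix ρ A = ⊥ := by
  have hinv : Inv ρ A (comm ρ A ⊓ fix ρ A) := by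
    rintro g hg u ⟨hu1, hu2⟩
    rw [hu2 g hg]
    exact ⟨hu1, hu2⟩
  rcases hA.irr _ inf_le_left hinv with h | h
  · exact h
  · exfalso
    apply hA.ne_bot
    apply eq_bot_of_quad hρ hO hA.sn
    intro g hg
    refine quad_of (s := comm ρ A) (fun m => sub_mem_comm hg m) fun u hu => ?_
    rw [← h] at hu
    exact hu.2 g hg

theorem comm_ne_bot (hρ : Function.Injective ρ) (hO : Cfsg.pCore p Γ = ⊥) {A : Subgroup Γ}
    (hA : Good ρ A) : comm ρ A ≠ ⊥ := by
  intro h
  apply hA.ne_bot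
  apply eq_bot_of_quad hρ hO hA.sn
  intro g hg
  refine quad_of (s := ⊥) (fun m => ?_) fun u hu => ?_
  · rw [← h]
    exact sub_mem_comm hg m
  · rw [Submodule.mem_bot] at hu
    rw [hu, map_zero]

/-- Case I: `U` is invariant under `B`. -/
theorem caseI (hρ : Function.Injective ρ) (hO : Cfsg.pCore p Γ = ⊥) {A B : Subgroup Γ}
    (hA : Good ρ A) (hB : Good ρ B) (h21 : ¬ comm ρ B ≤ comm ρ A)
    (hinv : Inv ρ B (comm ρ A)) : Concl ρ A B := by
  set U := comm ρ A with hU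
  set W := comm ρ B with hW
  have hI : U ⊓ W = ⊥ := by
    have h1 : Inv ρ B (U ⊓ W) := by
      rintro b hb u ⟨hu1, hu2⟩
      exact ⟨hinv b hb u hu1, inv_comm B b hb u hu2⟩
    rcases hB.irr _ inf_le_right h1 with h2 | h2
    · exact h2
    · exfalso
      apply h21
      have h3 : W ≤ U ⊓ W := le_of_eq h2.symm
      exact h3.trans inf_le_left
  have hfix : ∀ b ∈ B, ∀ u ∈ U, ρ b u = u := by
    intro b hb u hu
    have h1 : ρ b u - u ∈ U ⊓ W := by
      refine ⟨Submodule.sub_mem _ (hinv b hb u hu) hu, sub_mem_comm hb u⟩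
    rw [hI, Submodule.mem_bot] at h1
    exact sub_eq_zero.mp h1
  have hD : ⁅A, B⁆ = ⊥ := by
    apply eq_bot_of_quad hρ hO
    · have h1 : SN ⁅A, B⁆ (A ⊔ B) := by
        apply SN.of_le_normalizer
        · rw [Subgroup.commutator_le]
          intro a ha b hb
          rw [commutatorElement_def]
          exact Subgroup.mul_mem _ (Subgroup.mul_mem _ (Subgroup.mul_mem _ (Subgroup.mem_sup_left ha)
            (Subgroup.mem_sup_right hb)) (Subgroup.inv_mem _ (Subgroup.mem_sup_left ha)))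
            (Subgroup.inv_mem _ (Subgroup.mem_sup_right hb))
        · exact sup_le (le_normalizer_commutator_left A B) (le_normalizer_commutator_right A B)
      exact h1.trans (hA.sn.sup hB.sn)
    · let S : Subgroup Γ :=
        { carrier := {g | (∀ u ∈ U, ρ g u = u) ∧ ∀ m, ρ g m - m ∈ U}
          one_mem' := ⟨fun u _ => by simp, fun m => by simp⟩
          mul_mem' := by
            rintro x y ⟨hx1, hx2⟩ ⟨hy1, hy2⟩
            refine ⟨fun u hu => ?_, fun m => ?_⟩
            · rw [map_mul, Module.End.mul_apply, hy1 u hu, hx1 u hu]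
            · rw [map_mul, Module.End.mul_apply]
              have e : ρ x (ρ y m) - m = (ρ x (ρ y m) - ρ y m) + (ρ y m - m) := by abel
              rw [e]
              exact Submodule.add_mem _ (hx2 _) (hy2 _)
          inv_mem' := by
            rintro x ⟨hx1, hx2⟩
            refine ⟨fun u hu => ?_, fun m => ?_⟩
            · have := rho_inv_apply_cancel (ρ := ρ) x u
              rwa [hx1 u hu] at this
            · have e : ρ x⁻¹ m - m = - (ρ x (ρ x⁻¹ m) - ρ x⁻¹ m) := by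
                rw [rho_apply_inv_cancel]
                abel
              rw [e]
              exact Submodule.neg_mem _ (hx2 _) }
      have hDS : ⁅A, B⁆ ≤ S := by
        rw [Subgroup.commutator_le]
        intro a ha b hb
        rw [commutatorElement_def]
        refine ⟨fun u hu => ?_, fun m => ?_⟩
        · simp only [map_mul, Module.End.mul_apply]
          rw [hfix _ (B.inv_mem hb) u hu, hfix b hb _ (inv_comm A _ (A.inv_mem ha) u hu),
            rho_apply_inv_cancel]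
        · simp only [map_mul, Module.End.mul_apply]
          set m₁ := ρ b⁻¹ m with hm₁
          set u₁ := ρ a⁻¹ m₁ - m₁ with hu₁
          have hu₁U : u₁ ∈ U := sub_mem_comm (A.inv_mem ha) m₁
          have e1 : ρ a⁻¹ m₁ = m₁ + u₁ := by rw [hu₁]; abel
          have e2 : ρ b m₁ = m := rho_apply_inv_cancel b m
          rw [e1, map_add, e2, hfix b hb u₁ hu₁U, map_add]
          have e3 : ρ a m + ρ a u₁ - m = (ρ a m - m) + ρ a u₁ := by abel
          rw [e3]
          exact Submodule.add_mem _ (sub_mem_comm ha m) (inv_comm A a ha _ hu₁U)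
      intro g hg m
      exact (hDS hg).1 _ ((hDS hg).2 m)
  refine ⟨fun a ha b hb => ?_, ?_, hI⟩
  · have h1 := Subgroup.commutator_mem_commutator ha hb
    rw [hD, Subgroup.mem_bot] at h1
    exact commutatorElement_eq_one_iff_mul_comm.mp h1
  · rw [eq_bot_iff]
    rintro k ⟨hk1, hk2⟩
    rw [Subgroup.mem_bot]
    apply hρ
    apply LinearMap.ext
    intro m
    have h1 : ρ k m - m ∈ U ⊓ W := ⟨sub_mem_comm hk1 m, sub_mem_comm hk2 m⟩
    rw [hI, Submodule.mem_bot] at h1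
    rw [sub_eq_zero.mp h1, map_one]
    rfl

theorem inv_of_commute {A C : Subgroup Γ} (h : ∀ a ∈ A, ∀ c ∈ C, a * c = c * a) :
    Inv ρ A (comm ρ C) := by
  intro a ha u hu
  unfold FFDicho.comm at hu ⊢
  induction hu using Submodule.span_induction with
  | mem m hm =>
    obtain ⟨c, hc, w, rfl⟩ := hm
    refine Submodule.subset_span ⟨c, hc, ρ a w, ?_⟩
    rw [map_sub, ← Module.End.mul_apply, ← Module.End.mul_apply, ← map_mul, ← map_mul, h a ha c hc]
  | zero => rw [map_zero]; exact Submodule.zero_mem _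
  | add x y _ _ hx hy => rw [map_add]; exact Submodule.add_mem _ hx hy
  | smul c x _ hx => rw [map_smul]; exact Submodule.smul_mem _ _ hx

/-- The induction hypothesis. -/
def IH (ρ : Γ →* Module.End (ZMod p) M) (n : ℕ) : Prop :=
  ∀ A B : Subgroup Γ, Nat.card ↥(A ⊔ B) < n → Good ρ A → Good ρ B → ¬ comm ρ A ≤ comm ρ B →
    ¬ comm ρ B ≤ comm ρ A → Concl ρ A B

theorem moved {A B : Subgroup Γ} (hn : IH ρ (Nat.card ↥(A ⊔ B))) (hA : Good ρ A)
    (hBA : ¬ comm ρ B ≤ comm ρ A) {g : Γ} (hg : g ∈ A ⊔ B)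
    (hmv : (comm ρ A).map (ρ g) ≠ comm ρ A) :
    (∀ a ∈ A, ∀ u ∈ comm ρ A, ρ a (ρ g u) = ρ g u) ∧ comm ρ A ⊓ (comm ρ A).map (ρ g) = ⊥ := by
  have hne : A ≠ A ⊔ B := by
    intro h
    apply hBA
    apply comm_mono
    rw [h]
    exact le_sup_right
  have hAE : SN A (A ⊔ B) := hA.sn.restrict le_sup_left le_top
  have hlt := NC_lt hAE hne
  have hA'N : MulAut.conj g • A ≤ NC A (A ⊔ B) := by
    intro c hc
    rw [mem_conj] at hc
    have h1 := (Subgroup.mem_normalizer_iff.mp (le_normalizer_NC hg) (g⁻¹ * c * g)).mp (le_NC hc)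
    have h2 : g * (g⁻¹ * c * g) * g⁻¹ = c := by group
    rwa [h2] at h1
  have hsup : A ⊔ MulAut.conj g • A ≤ NC A (A ⊔ B) := sup_le le_NC hA'N
  have hcard : Nat.card ↥(A ⊔ MulAut.conj g • A) < Nat.card ↥(A ⊔ B) := by
    by_contra h
    push Not at h
    have e : A ⊔ MulAut.conj g • A = A ⊔ B :=
      Subgroup.eq_of_le_of_card_ge (hsup.trans hlt.le) h
    rw [e] at hsup
    exact absurd hsup (not_le_of_gt hlt)
  have h1 : ¬ comm ρ A ≤ comm ρ (MulAut.conj g • A) := by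
    rw [comm_conj]
    intro hle
    exact hmv (eq_of_le_of_card hle (card_map_rho _ _).symm).symm
  have h2 : ¬ comm ρ (MulAut.conj g • A) ≤ comm ρ A := by
    rw [comm_conj]
    intro hle
    exact hmv (eq_of_le_of_card hle (card_map_rho _ _))
  have C := hn A _ hcard hA (hA.conj g) h1 h2
  have hinf := C.2.2
  have hinv := inv_of_commute (ρ := ρ) C.1
  rw [comm_conj] at hinv hinf
  refine ⟨fun a ha u hu => ?_, hinf⟩
  have h3 : ρ a (ρ g u) - ρ g u ∈ comm ρ A ⊓ (comm ρ A).map (ρ g) := by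
    refine ⟨sub_mem_comm ha _, Submodule.sub_mem _ (hinv a ha _ ⟨u, hu, rfl⟩) ⟨u, hu, rfl⟩⟩
  rw [hinf, Submodule.mem_bot] at h3
  exact sub_eq_zero.mp h3

theorem map_rho_mul (s : Submodule (ZMod p) M) (g h : Γ) :
    s.map (ρ (g * h)) = (s.map (ρ h)).map (ρ g) := by
  rw [← Submodule.map_comp, map_mul]
  rfl

theorem map_rho_inj {s t : Submodule (ZMod p) M} (g : Γ) (h : s.map (ρ g) = t.map (ρ g)) : s = t := by
  have h1 : (s.map (ρ g)).map (ρ g⁻¹) = (t.map (ρ g)).map (ρ g⁻¹) := by rw [h]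
  rw [← map_rho_mul, ← map_rho_mul, inv_mul_cancel, map_one] at h1
  have e : ∀ S : Submodule (ZMod p) M, S.map (1 : Module.End (ZMod p) M) = S := fun S => Submodule.map_id S
  rwa [e, e] at h1

/-- The main theorem, in module language. -/
theorem main_aux (hρ : Function.Injective ρ) (hO : Cfsg.pCore p Γ = ⊥) :
    ∀ (n : ℕ) (A B : Subgroup Γ), Nat.card ↥(A ⊔ B) = n → Good ρ A → Good ρ B →
      ¬ comm ρ A ≤ comm ρ B → ¬ comm ρ B ≤ comm ρ A → Concl ρ A B := by
  intro n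
  induction n using Nat.strong_induction_on with
  | _ n ih =>
  intro A B hn hA hB h12 h21
  by_cases hinv : Inv ρ B (comm ρ A)
  · exact caseI hρ hO hA hB h21 hinv
  by_cases hinv' : Inv ρ A (comm ρ B)
  · exact (caseI hρ hO hB hA h12 hinv').symm
  exfalso
  have IH1 : IH ρ (Nat.card ↥(A ⊔ B)) := fun A' B' hlt => ih _ (hn ▸ hlt) A' B' rfl
  have IH2 : IH ρ (Nat.card ↥(B ⊔ A)) := by
    rw [sup_comm]
    exact IH1
  set U := comm ρ A with hU
  set W := comm ρ B with hW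
  unfold Inv at hinv hinv'
  push Not at hinv hinv'
  obtain ⟨b₀, hb₀, u₀, hu₀, hb₀u⟩ := hinv
  obtain ⟨a₀, ha₀, w₀, hw₀, ha₀w⟩ := hinv'
  have hb₀m : U.map (ρ b₀) ≠ U := fun h => hb₀u (h ▸ ⟨u₀, hu₀, rfl⟩)
  have ha₀m : W.map (ρ a₀) ≠ W := fun h => ha₀w (h ▸ ⟨w₀, hw₀, rfl⟩)
  have hmove : ∀ b ∈ B, U.map (ρ b) ≠ U →
      (∀ a ∈ A, ∀ u ∈ U, ρ a (ρ b u) = ρ b u) ∧ U ⊓ U.map (ρ b) = ⊥ := fun b hb hm =>
    moved IH1 hA h21 (Subgroup.mem_sup_right hb) hm
  -- injections
  have hcardle : ∀ {A' B' : Subgroup Γ} {g : Γ} (hg : g ∈ B'), comm ρ A' ⊓ (comm ρ A').map (ρ g) = ⊥ →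
      Function.Injective (fun u : comm ρ A' => (⟨ρ g u - u, sub_mem_comm hg _⟩ : comm ρ B')) := by
    intro A' B' g hg hI u v huv
    have h1 : ρ g (u : M) - u = ρ g v - v := congrArg Subtype.val huv
    have h2 : ((u : M) - v) ∈ comm ρ A' ⊓ (comm ρ A').map (ρ g) := by
      refine ⟨Submodule.sub_mem _ u.2 v.2, ⟨(u : M) - v, Submodule.sub_mem _ u.2 v.2, ?_⟩⟩
      show ρ g ((u : M) - v) = (u : M) - v
      rw [map_sub]
      have e : ρ g (u : M) - ρ g v = (ρ g (u : M) - u) - (ρ g v - v) + ((u : M) - v) := by abel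
      rw [e, h1, sub_self, zero_add]
    rw [hI, Submodule.mem_bot] at h2
    exact Subtype.ext (sub_eq_zero.mp h2)
  have hc1 : Nat.card U ≤ Nat.card W := Nat.card_le_card_of_injective _ (hcardle hb₀ (hmove b₀ hb₀ hb₀m).2)
  have hc2 : Nat.card W ≤ Nat.card U :=
    Nat.card_le_card_of_injective _ (hcardle ha₀ (moved IH2 hB h12 (Subgroup.mem_sup_right ha₀) ha₀m).2)
  have hbij : ∀ b ∈ B, U.map (ρ b) ≠ U → ∀ w ∈ W, ∃ u ∈ U, w = ρ b u - u := by
    intro b hb hm w hw
    have hinj := hcardle hb (hmove b hb hm).2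
    obtain ⟨u, hu⟩ := (hinj.bijective_of_nat_card_le hc2).2 ⟨w, hw⟩
    exact ⟨u, u.2, (congrArg Subtype.val hu).symm⟩
  have hsame : ∀ b ∈ B, ∀ b' ∈ B, U.map (ρ b) ≠ U → U.map (ρ b') ≠ U → U.map (ρ b) = U.map (ρ b') := by
    intro b hb b' hb' hm hm'
    by_contra hne
    obtain ⟨u, hu, hu0⟩ := Submodule.exists_mem_ne_zero_of_ne_bot (comm_ne_bot hρ hO hA)
    obtain ⟨u', hu', he⟩ := hbij b' hb' hm' (ρ b u - u) (sub_mem_comm hb u)
    have hx : u - u' ∈ U ⊓ fix ρ A := by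
      refine ⟨Submodule.sub_mem _ hu hu', fun a ha => ?_⟩
      have e1 : u - u' = ρ b u - ρ b' u' := by
        have : ρ b u - u + u - u' = ρ b' u' - u' + u - u' := by rw [he]
        have e2 : ρ b u - u + u - u' = ρ b u - u' := by abel
        have e3 : ρ b' u' - u' + u - u' = ρ b' u' - u' + (u - u') := by abel
        have e4 : ρ b u - ρ b' u' = (ρ b u - u) - (ρ b' u' - u') + (u - u') := by abel
        rw [e4, he, sub_self, zero_add]
      rw [e1, map_sub, (hmove b hb hm).1 a ha u hu, (hmove b' hb' hm').1 a ha u' hu']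
    rw [comm_inf_fix hρ hO hA, Submodule.mem_bot] at hx
    have hu'e : u = u' := sub_eq_zero.mp hx
    subst hu'e
    have hy : ρ b u = ρ b' u := by
      have := congrArg (· + u) he
      simpa using this
    have hgm : U.map (ρ (b⁻¹ * b')) ≠ U := by
      intro h
      apply hne
      have h1 : U.map (ρ b') = U.map (ρ b) := by
        have e : b' = b * (b⁻¹ * b') := by group
        conv_lhs => rw [e, map_rho_mul, h]
      exact h1.symm
    have h2 := (hmove _ (B.mul_mem (B.inv_mem hb) hb') hgm).2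
    have h3 : u ∈ U ⊓ U.map (ρ (b⁻¹ * b')) := by
      refine ⟨hu, ⟨u, hu, ?_⟩⟩
      show ρ (b⁻¹ * b') u = u
      rw [map_mul, Module.End.mul_apply, ← hy, rho_inv_apply_cancel]
    rw [h2, Submodule.mem_bot] at h3
    exact hu0 h3
  have hρ0 : ∀ (b : Γ) {u : M}, ρ b u = 0 → u = 0 := by
    intro b u h
    have := rho_inv_apply_cancel (ρ := ρ) b u
    rw [h, map_zero] at this
    exact this.symm
  have hUW : U ⊓ W = ⊥ := by
    rw [eq_bot_iff]
    rintro w ⟨hwU, hwW⟩
    obtain ⟨u, hu, rfl⟩ := hbij b₀ hb₀ hb₀m w hwW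
    have h1 : ρ b₀ u ∈ U ⊓ U.map (ρ b₀) := by
      refine ⟨?_, ⟨u, hu, rfl⟩⟩
      have e : ρ b₀ u = (ρ b₀ u - u) + u := by abel
      rw [e]
      exact Submodule.add_mem _ hwU hu
    rw [(hmove b₀ hb₀ hb₀m).2, Submodule.mem_bot] at h1
    have h2 := hρ0 b₀ h1
    rw [h1, h2, sub_zero]
    exact Submodule.zero_mem _
  have hXW : U.map (ρ b₀) ⊓ W = ⊥ := by
    rw [eq_bot_iff]
    rintro w ⟨hwX, hwW⟩
    obtain ⟨u, hu, rfl⟩ := hbij b₀ hb₀ hb₀m w hwW
    have h1 : u ∈ U ⊓ U.map (ρ b₀) := by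
      refine ⟨hu, ?_⟩
      have e : u = ρ b₀ u - (ρ b₀ u - u) := by abel
      rw [e]
      exact Submodule.sub_mem _ ⟨u, hu, rfl⟩ hwX
    rw [(hmove b₀ hb₀ hb₀m).2, Submodule.mem_bot] at h1
    rw [h1, map_zero, sub_zero]
    exact Submodule.zero_mem _
  -- the kernel on `W`
  have hK : B ⊓ stab ρ W = ⊥ := by
    apply eq_bot_of_quad hρ hO
    · refine SN.trans (SN.of_le_normalizer inf_le_left ?_) hB.sn
      intro b hb
      apply Cfsg.Agent.Lib.Core.CoprimeMap.mem_normalizer_of_forall_conj_mem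
      rintro k ⟨hk1, hk2⟩
      refine ⟨B.mul_mem (B.mul_mem hb hk1) (B.inv_mem hb), fun π hπ => ?_⟩
      rw [map_mul, map_mul, Module.End.mul_apply, Module.End.mul_apply]
      rw [hk2 _ (inv_comm B _ (B.inv_mem hb) π hπ), rho_apply_inv_cancel]
    · rintro k ⟨hk1, hk2⟩
      exact quad_of (fun m => sub_mem_comm hk1 m) hk2
  have hB1 : ∀ b₁ ∈ B, U.map (ρ b₁) = U → b₁ = 1 := by
    intro b₁ hb₁ hfix
    have h1 : ∀ u ∈ U, ρ b₁ u = u := by
      intro u hu
      have h2 : ρ b₁ u - u ∈ U ⊓ W := by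
        refine ⟨Submodule.sub_mem _ (hfix ▸ ⟨u, hu, rfl⟩) hu, sub_mem_comm hb₁ u⟩
      rw [hUW, Submodule.mem_bot] at h2
      exact sub_eq_zero.mp h2
    have hm : U.map (ρ (b₁ * b₀)) ≠ U := by
      intro h
      rw [map_rho_mul] at h
      apply hb₀m
      apply map_rho_inj b₁
      rw [h, hfix]
    have h2 : ∀ x ∈ U.map (ρ b₀), ρ b₁ x = x := by
      rintro _ ⟨u, hu, rfl⟩
      have h3 : ρ b₁ (ρ b₀ u) ∈ U.map (ρ b₀) := by
        rw [hsame b₀ hb₀ (b₁ * b₀) (B.mul_mem hb₁ hb₀) hb₀m hm]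
        refine ⟨u, hu, ?_⟩
        show ρ (b₁ * b₀) u = _
        rw [map_mul, Module.End.mul_apply]
      have h4 : ρ b₁ (ρ b₀ u) - ρ b₀ u ∈ U.map (ρ b₀) ⊓ W :=
        ⟨Submodule.sub_mem _ h3 ⟨u, hu, rfl⟩, sub_mem_comm hb₁ _⟩
      rw [hXW, Submodule.mem_bot] at h4
      exact sub_eq_zero.mp h4
    have h3 : b₁ ∈ B ⊓ stab ρ W := by
      refine ⟨hb₁, fun w hw => ?_⟩
      obtain ⟨u, hu, rfl⟩ := hbij b₀ hb₀ hb₀m w hw
      rw [map_sub, h1 u hu, h2 _ ⟨u, hu, rfl⟩]
    rw [hK] at h3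
    exact h3
  have hall : ∀ b' ∈ B, b' = 1 ∨ b' = b₀ := by
    intro b' hb'
    by_cases h1 : U.map (ρ b') = U
    · exact Or.inl (hB1 b' hb' h1)
    · right
      have h2 := hsame b₀ hb₀ b' hb' hb₀m h1
      have h3 : U.map (ρ (b₀⁻¹ * b')) = U := by
        rw [map_rho_mul, ← h2, ← map_rho_mul, inv_mul_cancel, map_one]
        exact Submodule.map_id U
      have h4 := hB1 _ (B.mul_mem (B.inv_mem hb₀) hb') h3
      rw [inv_mul_eq_one] at h4
      exact h4.symm
  have hsub : (B : Set Γ) ⊆ {1, b₀} := by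
    intro b hb
    rcases hall b hb with h | h
    · left; exact h
    · right; exact h
  have h5 : Nat.card B ≤ 2 := by
    rw [show Nat.card B = (B : Set Γ).ncard from (Nat.card_coe_set_eq _)]
    exact (Set.ncard_le_ncard hsub (Set.toFinite _)).trans ((Set.ncard_insert_le _ _).trans (by simp))
  have := hB.card
  omega

/-- The commutator module of a join. -/
theorem comm_sup (A B : Subgroup Γ) : comm ρ (A ⊔ B) = comm ρ A ⊔ comm ρ B := by
  apply le_antisymm
  · set X := comm ρ A ⊔ comm ρ B with hX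
    let T : Subgroup Γ :=
      { carrier := {g | ∀ m, ρ g m - m ∈ X}
        one_mem' := fun m => by simp
        mul_mem' := by
          intro x y hx hy m
          rw [map_mul, Module.End.mul_apply]
          have e : ρ x (ρ y m) - m = (ρ x (ρ y m) - ρ y m) + (ρ y m - m) := by abel
          rw [e]
          exact Submodule.add_mem _ (hx _) (hy _)
        inv_mem' := by
          intro x hx m
          have e : ρ x⁻¹ m - m = - (ρ x (ρ x⁻¹ m) - ρ x⁻¹ m) := by
            rw [rho_apply_inv_cancel]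
            abel
          rw [e]
          exact Submodule.neg_mem _ (hx _) }
    have hT : A ⊔ B ≤ T := by
      refine sup_le (fun a ha m => ?_) (fun b hb m => ?_)
      · exact Submodule.mem_sup_left (sub_mem_comm ha m)
      · exact Submodule.mem_sup_right (sub_mem_comm hb m)
    refine Submodule.span_le.mpr ?_
    rintro _ ⟨g, hg, w, rfl⟩
    exact hT hg w
  · exact sup_le (comm_mono le_sup_left) (comm_mono le_sup_right)

end Cfsg.Agent.Lib.QuadAct.FFPair
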