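import Cfsg.Agent.Lib.QuadAct.FFPair
import Cfsg.Agent.Lib.QuadAct.FFDict
import Cfsg.Agent.Lib.Core.CoprimeMap

/-!
# Two subnormal subgroups acting irreducibly: the group-theoretic form
-/

set_option autoImplicit false
set_option linter.unusedSectionVars false
set_option linter.unusedSimpArgs false

open scoped commutatorElement
open Module

namespace Cfsg.Agent.Lib.QuadAct.FFPairG

open Cfsg.Agent.Lib.QuadAct.FFBasic Cfsg.Agent.Lib.QuadAct.FFDicho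
open Cfsg.Agent.Lib.QuadAct.FFPair Cfsg.Agent.Lib.QuadAct.FFDict
open Cfsg.Agent.Lib.Subnormal.Basic

universe u

variable {G : Type u} [Group G] [Finite G] {p : ℕ} [Fact p.Prime] {V E : Subgroup G}
  {M : Type u} [AddCommGroup M] [Module (ZMod p) M] [Finite M] {ρ : E →* Module.End (ZMod p) M}
  {ι : M → G}

theorem good_of (D : IsCoord V E ρ ι) {A : Subgroup G} (hA : A ≤ E)
    (hs : (A.subgroupOf E).IsSubnormal)
    (hirr : ∀ U : Subgroup G, U ≤ ⁅V, A⁆ → A ≤ Subgroup.normalizer (U : Set G) → U = ⊥ ∨ U = ⁅V, A⁆)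
    (hc : 2 < Nat.card A) : Good ρ (A.subgroupOf E) := by
  refine ⟨isSubnormal_iff_SN_top.mp hs, fun s hs hi => ?_, ?_⟩
  · have h1 : IsCoord.toG D s ≤ ⁅V, A⁆ := by
      rw [← D.comm_dict hA]
      exact IsCoord.toG_mono hs
    have h2 : A ≤ Subgroup.normalizer (IsCoord.toG D s : Set G) := by
      intro a ha
      apply Cfsg.Agent.Lib.Core.CoprimeMap.mem_normalizer_of_forall_conj_mem
      rintro _ ⟨m, hm, rfl⟩
      have h3 := D.conj ⟨a, hA ha⟩ m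
      have h4 : a * ι m * a⁻¹ = ι (ρ ⟨a, hA ha⟩ m) := h3.symm
      rw [h4]
      exact ⟨_, hi ⟨a, hA ha⟩ ha m hm, rfl⟩
    rcases hirr _ h1 h2 with h | h
    · left
      apply IsCoord.toG_injective (D := D)
      rw [h, IsCoord.toG_bot]
    · right
      apply IsCoord.toG_injective (D := D)
      rw [h, D.comm_dict hA]
  · rw [D.card_subgroupOf hA]
    exact hc

/-- The group-theoretic form. -/
theorem pair_main (V E E₁ E₂ : Subgroup G) (hV : Cfsg.IsElementaryAbelian p V)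
    (hEV : E ≤ Subgroup.normalizer (V : Set G)) (hf : E ⊓ Subgroup.centralizer (V : Set G) = ⊥)
    (hgen : E = E₁ ⊔ E₂) (hs₁ : (E₁.subgroupOf E).IsSubnormal) (hs₂ : (E₂.subgroupOf E).IsSubnormal)
    (hOp : Cfsg.pCore p ↥E = ⊥)
    (hirr₁ : ∀ U : Subgroup G, U ≤ ⁅V, E₁⁆ → E₁ ≤ Subgroup.normalizer (U : Set G) → U = ⊥ ∨ U = ⁅V, E₁⁆)
    (hirr₂ : ∀ U : Subgroup G, U ≤ ⁅V, E₂⁆ → E₂ ≤ Subgroup.normalizer (U : Set G) → U = ⊥ ∨ U = ⁅V, E₂⁆)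
    (h12 : ¬ ⁅V, E₁⁆ ≤ ⁅V, E₂⁆) (h21 : ¬ ⁅V, E₂⁆ ≤ ⁅V, E₁⁆)
    (hc₁ : 2 < Nat.card E₁) (hc₂ : 2 < Nat.card E₂) :
    ⁅E₁, E₂⁆ = ⊥ ∧ E₁ ⊓ E₂ = ⊥ ∧ ⁅V, E₁⁆ ⊓ ⁅V, E₂⁆ = ⊥ ∧ ⁅V, E⁆ = ⁅V, E₁⁆ ⊔ ⁅V, E₂⁆ := by
  obtain ⟨M, _, _, _, ρ, ι, D⟩ := exists_coord (H := E) hV hEV hf
  have hE1 : E₁ ≤ E := hgen ▸ le_sup_left
  have hE2 : E₂ ≤ E := hgen ▸ le_sup_right
  have hd1 := D.comm_dict hE1
  have hd2 := D.comm_dict hE2
  have hl1 : ¬ comm ρ (E₁.subgroupOf E) ≤ comm ρ (E₂.subgroupOf E) := by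
    intro h
    apply h12
    rw [← hd1, ← hd2]
    exact IsCoord.toG_mono h
  have hl2 : ¬ comm ρ (E₂.subgroupOf E) ≤ comm ρ (E₁.subgroupOf E) := by
    intro h
    apply h21
    rw [← hd1, ← hd2]
    exact IsCoord.toG_mono h
  have C := main_aux D.faith hOp _ (E₁.subgroupOf E) (E₂.subgroupOf E) rfl
    (good_of D hE1 hs₁ hirr₁ hc₁) (good_of D hE2 hs₂ hirr₂ hc₂) hl1 hl2
  refine ⟨?_, ?_, ?_, ?_⟩
  · rw [eq_bot_iff, Subgroup.commutator_le]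
    intro x hx y hy
    have h := C.1 ⟨x, hE1 hx⟩ hx ⟨y, hE2 hy⟩ hy
    have h' : x * y = y * x := congrArg Subtype.val h
    rw [Subgroup.mem_bot]
    exact commutatorElement_eq_one_iff_mul_comm.mpr h'
  · rw [eq_bot_iff]
    rintro x ⟨hx1, hx2⟩
    have h : (⟨x, hE1 hx1⟩ : E) ∈ E₁.subgroupOf E ⊓ E₂.subgroupOf E := ⟨hx1, hx2⟩
    rw [C.2.1, Subgroup.mem_bot] at h
    rw [Subgroup.mem_bot]
    exact congrArg Subtype.val h
  · rw [← hd1, ← hd2, ← IsCoord.toG_inf, C.2.2, IsCoord.toG_bot]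
  · have htop : E₁.subgroupOf E ⊔ E₂.subgroupOf E = ⊤ := by
      rw [eq_top_iff]
      have h1 : E = (E₁.subgroupOf E ⊔ E₂.subgroupOf E).map E.subtype := by
        rw [Subgroup.map_sup, Subgroup.map_subgroupOf_eq_of_le hE1,
          Subgroup.map_subgroupOf_eq_of_le hE2]
        exact hgen
      rintro ⟨x, hx⟩ -
      have hx' := hx
      rw [h1] at hx'
      obtain ⟨y, hy, hyx⟩ := hx'
      have : y = ⟨x, hx⟩ := Subtype.ext hyx
      rwa [← this]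
    have h1 := D.comm_dict (le_refl E)
    rw [Subgroup.subgroupOf_self, ← htop, comm_sup, IsCoord.toG_sup, hd1, hd2] at h1
    exact h1.symm

end Cfsg.Agent.Lib.QuadAct.FFPairG
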