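import Cfsg.Agent.Lib.QuadAct.FFEquiv

/-!
# Coprime operators on groups where factorization may fail: abstract setting
-/

set_option autoImplicit false
set_option linter.unusedSectionVars false
set_option linter.unusedSimpArgs false
set_option linter.style.haveILetI false

open scoped commutatorElement
open Module

namespace Cfsg.Agent.Lib.QuadAct.FFX

open Cfsg.Agent.Lib.QuadAct.FFBasic Cfsg.Agent.Lib.QuadAct.ThmA
open Cfsg.Agent.Lib.QuadAct.FFTrans Cfsg.Agent.Lib.QuadAct.FFTriple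
open Cfsg.Agent.Lib.QuadAct.FFGen Cfsg.Agent.Lib.QuadAct.FFPlane
open Cfsg.Agent.Lib.QuadAct.FFSL2 Cfsg.Agent.Lib.QuadAct.FFDicho
open Cfsg.Agent.Lib.QuadAct.FFMin
open Cfsg.Agent.Lib.QuadAct.FFQuot Cfsg.Agent.Lib.QuadAct.FFFail
open Cfsg.Agent.Lib.QuadAct.FFEquiv Cfsg.Agent.Lib.QuadAct.FFCore
open Cfsg.Agent.Lib.QuadAct.Replacement Cfsg.Agent.Lib.QuadAct.Basic
open Cfsg.Agent.Lib.QuadAct.Stable Cfsg.Agent.Lib.QuadAct.OmegaZ
open Cfsg.Agent.Lib.Core.Basic Cfsg.Agent.Lib.Core.PSolvable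
open Cfsg.Agent.Lib.QuadAct.ZJ

universe u w

variable {K' : Type u} [Group K'] [Finite K'] {p : ℕ} [Fact p.Prime] {X : Type w} [Group X]
  [Finite X]

/-- The fixed points of an action by automorphisms. -/
def Fix (θ₀ : X →* MulAut K') : Subgroup K' where
  carrier := {k | ∀ w, θ₀ w k = k}
  one_mem' := fun w => map_one _
  mul_mem' := fun {a b} ha hb w => by rw [map_mul, ha w, hb w]
  inv_mem' := fun {a} ha w => by rw [map_inv, ha w]

theorem mem_Fix {θ₀ : X →* MulAut K'} {k : K'} : k ∈ Fix θ₀ ↔ ∀ w, θ₀ w k = k := Iff.rfl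

/-- `omegaV` is characteristic. -/
theorem omegaV_aut (φ : K' ≃* K') {v : K'} (hv : v ∈ omegaV p K') : φ v ∈ omegaV p K' := by
  have h : (omegaV p K').map φ.toMonoidHom ≤ omegaV p K' := by
    unfold omegaV
    rw [Subgroup.map_iSup]
    refine iSup_le fun S => ?_
    unfold Cfsg.omegaOne
    rw [MonoidHom.map_closure, Subgroup.closure_le]
    rintro _ ⟨x, ⟨⟨hx1, hx2⟩, hx3⟩, rfl⟩
    let S' : Sylow p K' := S.mapSurjective (f := φ.toMonoidHom) φ.surjective
    have hS' : (S' : Subgroup K') = (S : Subgroup K').map φ.toMonoidHom :=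
      Sylow.coe_mapSurjective _ S
    refine Subgroup.mem_iSup_of_mem S' (Subgroup.subset_closure ⟨⟨?_, ?_⟩, ?_⟩)
    · rw [hS']
      exact Subgroup.mem_map_of_mem _ hx1
    · rw [hS']
      refine Subgroup.mem_centralizer_iff.mpr ?_
      rintro _ ⟨s, hs, rfl⟩
      have := Subgroup.mem_centralizer_iff.mp hx2 s hs
      show φ s * φ x = φ x * φ s
      rw [← map_mul, this, map_mul]
    · show (φ x) ^ p = 1
      rw [← map_pow, hx3, map_one]
  exact h ⟨v, hv, rfl⟩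

theorem thompson_aut (φ : K' ≃* K') {k : K'} (hk : k ∈ Cfsg.thompsonSubgroup p K') :
    φ k ∈ Cfsg.thompsonSubgroup p K' := by
  have h := Cfsg.Agent.Lib.Core.ThompsonMap.map_thompsonSubgroup_equiv (p := p) φ
  rw [← h]
  exact ⟨k, hk, rfl⟩

section coord

variable {θ₀ : X →* MulAut K'} {V : Subgroup K'} [V.Normal] {M : Type u} [AddCommGroup M]
  [Module (ZMod p) M] [Finite M] {ρ : K' ⧸ Subgroup.centralizer (V : Set K') →* Module.End (ZMod p) M}
  {ι : M → K'}

theorem exists_tau (D : IsCoordQ V ρ ι) (hVinv : ∀ x, ∀ v ∈ V, θ₀ x v ∈ V) :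
    ∃ τ : X →* Module.End (ZMod p) M, ∀ x m, ι (τ x m) = θ₀ x (ι m) := by
  have h1 : ∀ x m, ∃ m', ι m' = θ₀ x (ι m) := fun x m => D.surj _ (hVinv x _ (D.mem m))
  choose τ₀ hτ₀ using h1
  have hadd : ∀ x m n, τ₀ x (m + n) = τ₀ x m + τ₀ x n := by
    intro x m n
    apply D.inj
    rw [D.add, hτ₀, hτ₀, hτ₀, D.add, map_mul]
  let τ₁ : X → Module.End (ZMod p) M := fun x =>
    AddMonoidHom.toZModLinearMap p (AddMonoidHom.mk' (τ₀ x) (hadd x))
  have hτ₁ : ∀ x m, τ₁ x m = τ₀ x m := fun _ _ => rfl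
  refine ⟨{ toFun := τ₁, map_one' := ?_, map_mul' := ?_ }, hτ₀⟩
  · apply LinearMap.ext
    intro m
    apply D.inj
    show ι (τ₀ 1 m) = ι m
    rw [hτ₀, map_one]
    rfl
  · intro x y
    apply LinearMap.ext
    intro m
    apply D.inj
    show ι (τ₀ (x * y) m) = ι (τ₀ x (τ₀ y m))
    rw [hτ₀, hτ₀, hτ₀, map_mul]
    rfl

variable {τ : X →* Module.End (ZMod p) M}

theorem itw_pi (D : IsCoordQ V ρ ι) (hτ : ∀ x m, ι (τ x m) = θ₀ x (ι m)) (x : X) (k : K') (m : M) :
    ρ (piV V (θ₀ x k)) (τ x m) = τ x (ρ (piV V k) m) := by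
  apply D.inj
  show ι (ρ (QuotientGroup.mk _) _) = ι (τ x (ρ (QuotientGroup.mk _) _))
  rw [D.conj, hτ, hτ, D.conj, map_mul, map_mul, map_inv]

theorem exists_theta (D : IsCoordQ V ρ ι) (hτ : ∀ x m, ι (τ x m) = θ₀ x (ι m)) {J : Subgroup K'}
    (hJ : ∀ x, ∀ k ∈ J, θ₀ x k ∈ J) :
    ∃ θ : X → ↥(J.map (piV V)) → ↥(J.map (piV V)),
      (∀ x γ m, ρ (θ x γ : K' ⧸ Subgroup.centralizer (V : Set K')) (τ x m) =
        τ x (ρ (γ : K' ⧸ Subgroup.centralizer (V : Set K')) m)) ∧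
      ∀ x, ∀ k ∈ J, ∀ hk, ((θ x ⟨piV V k, hk⟩ : ↥(J.map (piV V))) : K' ⧸ Subgroup.centralizer (V : Set K')) =
        piV V (θ₀ x k) := by
  have h1 : ∀ (x : X) (γ : ↥(J.map (piV V))), ∃ γ' : ↥(J.map (piV V)),
      ∀ m, ρ (γ' : K' ⧸ Subgroup.centralizer (V : Set K')) (τ x m) =
        τ x (ρ (γ : K' ⧸ Subgroup.centralizer (V : Set K')) m) := by
    rintro x ⟨_, k, hk, rfl⟩
    exact ⟨⟨piV V (θ₀ x k), ⟨_, hJ x k hk, rfl⟩⟩, fun m => itw_pi D hτ x k m⟩
  choose θ hθ using h1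
  refine ⟨θ, fun x γ m => hθ x γ m, fun x k hk hk' => ?_⟩
  apply D.faith
  ext m
  have h2 : m = τ x (τ x⁻¹ m) := (rho_apply_inv_cancel x m).symm
  rw [h2, hθ, itw_pi D hτ]

end coord

section family

variable {V : Subgroup K'} [V.Normal] {M : Type u} [AddCommGroup M]
  [Module (ZMod p) M] [Finite M] {ρ : K' ⧸ Subgroup.centralizer (V : Set K') →* Module.End (ZMod p) M}
  {ι : M → K'}

/-- The family of images of maximal elementary abelian subgroups. -/
def fam (p : ℕ) (K' : Type u) [Group K'] (V : Subgroup K') [V.Normal]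
    (L : Subgroup (K' ⧸ Subgroup.centralizer (V : Set K'))) : Set (Subgroup L) :=
  {B | ∃ A ∈ Cfsg.maxElementaryAbelianSubgroups p K', B = (A.map (piV V)).subgroupOf L}

theorem sSup_fam :
    sSup (fam p K' V ((Cfsg.thompsonSubgroup p K').map (piV V))) = ⊤ := by
  set L := (Cfsg.thompsonSubgroup p K').map (piV V) with hL
  rw [eq_top_iff]
  rintro ⟨_, j, hj, rfl⟩ -
  have h1 : Cfsg.thompsonSubgroup p K' ≤ ((sSup (fam p K' V L)).map L.subtype).comap (piV V) := by
    refine sSup_le fun A hA a ha => ?_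
    have hm : piV V a ∈ L := ⟨a, le_sSup hA ha, rfl⟩
    refine ⟨⟨piV V a, hm⟩, ?_, rfl⟩
    have h2 : (A.map (piV V)).subgroupOf L ≤ sSup (fam p K' V L) := le_sSup ⟨A, hA, rfl⟩
    exact h2 (Subgroup.mem_map_of_mem _ ha)
  obtain ⟨q, hq, e⟩ := h1 hj
  have : q = ⟨piV V j, ⟨j, hj, rfl⟩⟩ := Subtype.ext e
  rwa [← this]

theorem best_fam (D : IsCoordQ V ρ ι) (hV : Cfsg.IsElementaryAbelian p V)
    {L : Subgroup (K' ⧸ Subgroup.centralizer (V : Set K'))}
    (hL : L = (Cfsg.thompsonSubgroup p K').map (piV V)) :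
    ∀ B ∈ fam p K' V L, Best (ρ.comp L.subtype) B := by
  rintro _ ⟨A, hA, rfl⟩
  refine D.best_of_max hV hA ?_
  rw [hL]
  exact Subgroup.map_mono (le_sSup hA)

end family

theorem six_dvd {Γ : Type*} [Group Γ] [Finite Γ] {M : Type*} [AddCommGroup M]
    [Module (ZMod p) M] [Finite M] {ρ : Γ →* Module.End (ZMod p) M} {O : Subgroup Γ} {a x : Γ} {e : M}
    {f : M →ₗ[ZMod p] ZMod p} (C : Ctx ρ O a e f x) : 6 ∣ Nat.card Γ := by
  have h1 : Nat.card (cls O a) = Nat.card (Matrix.SpecialLinearGroup (Fin 2) (ZMod p)) :=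
    Nat.card_congr (Ctx.phiEquiv C).toEquiv
  have h2 : Nat.card (cls O a) ∣ Nat.card Γ := Subgroup.card_subgroup_dvd_card _
  rcases C.hp with hp | hp
  · subst hp
    rw [h1, card_sl2_two] at h2
    exact h2
  · subst hp
    rw [h1, card_sl2_three] at h2
    exact dvd_trans (by norm_num) h2

/-- Lifting fixed points. -/
def Lifts (θ₀ : X →* MulAut K') (C : Subgroup K') : Prop :=
  ∀ k : K', (∀ w, θ₀ w k * k⁻¹ ∈ C) → ∃ c, c ∈ Fix θ₀ ∧ k⁻¹ * c ∈ C

theorem eq_of_mem_ker {Q : Type*} [Group Q] (π : K' →* Q) {k c : K'} (h : k⁻¹ * c ∈ π.ker) : π c = π k := by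
  have h1 : π (k⁻¹ * c) = 1 := h
  rw [map_mul, map_inv] at h1
  exact (inv_mul_eq_one.mp h1).symm

theorem main620 (hsep : Cfsg.IsPSolvable p K') (hO : Cfsg.pPrimeCore p K' = ⊥)
    (θ₀ : X →* MulAut K') (hcop : (Nat.card X).Coprime (Nat.card K'))
    (hlift : Lifts θ₀ (Subgroup.centralizer ((omegaV p K' : Subgroup K') : Set K')))
    (S : Sylow p K') :
    Subgroup.normalizer (Cfsg.thompsonSubgroupOf p (S : Subgroup K') : Set K') ⊔
      Subgroup.centralizer (Cfsg.omegaOne p ((S : Subgroup K') ⊓ Subgroup.centralizer ((S : Subgroup K') : Set K')) : Set K') ⊔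
      Fix θ₀ = ⊤ := by
  haveI hVn : (omegaV p K').Normal := omegaV_normal
  set V := omegaV p K' with hVdef
  have hVe : Cfsg.IsElementaryAbelian p V := omegaV_ea hsep hO
  have hpc : Cfsg.pCore p (K' ⧸ Subgroup.centralizer (V : Set K')) = ⊥ := omegaV_pCore
  obtain ⟨M, _, _, _, ρ, ι, D⟩ := exists_coordQ (p := p) hVe
  obtain ⟨τ, hτ⟩ := exists_tau (θ₀ := θ₀) D (fun x v hv => omegaV_aut (θ₀ x) hv)
  set J := Cfsg.thompsonSubgroup p K' with hJ
  have hJinv : ∀ x, ∀ k ∈ J, θ₀ x k ∈ J := fun x k hk => thompson_aut (θ₀ x) hk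
  set L := J.map (piV V) with hL
  obtain ⟨θ, hθ1, hθ2⟩ := exists_theta D hτ hJinv
  have h : Equi (ρ.comp L.subtype) τ θ := ⟨D.faithL L, fun x γ m => hθ1 x γ m⟩
  have hLn : L.Normal := (thompson_normal p).map _ piV_surj
  have hsep' := isPSolvable_of_surjective (piV V) piV_surj hsep
  have hS1 := hS1_of hsep' hpc hLn
  have hgen := D.hgen_J hVe (L := L) rfl
  have hcl := closure_tvs' (D.faithL L) hS1 hgen
  set O := Cfsg.pPrimeCore p ↥L with hOdef
  have hOn : O.Normal := inferInstance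
  have hOc : (Nat.card O).Coprime p := pPrimeCore_coprime
  have hOinv : ∀ x, ∀ z ∈ O, θ x z ∈ O := by
    intro x z hz
    have e1 : O.comap (h.thetaE x).toMonoidHom = O :=
      (inferInstance : O.Characteristic).fixed (h.thetaE x)
    rw [← e1] at hz
    exact hz
  have hRΓ : (Nat.card X).Coprime (Nat.card L) := by
    refine Nat.Coprime.coprime_dvd_right ?_ hcop
    exact (Subgroup.card_subgroup_dvd_card L).trans (Subgroup.card_quotient_dvd_card _)
  set C := Subgroup.centralizer (V : Set K') with hC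
  have hker : (piV V).ker = C := piV_ker
  set Y := Subgroup.normalizer (Cfsg.thompsonSubgroupOf p (S : Subgroup K') : Set K') ⊔
      Subgroup.centralizer (Cfsg.omegaOne p ((S : Subgroup K') ⊓ Subgroup.centralizer ((S : Subgroup K') : Set K')) : Set K') ⊔
      Fix θ₀ with hY
  have hNY : Subgroup.normalizer (Cfsg.thompsonSubgroupOf p (S : Subgroup K') : Set K') ≤ Y :=
    le_sup_left.trans le_sup_left
  have hFY : Fix θ₀ ≤ Y := le_sup_right
  have hCY : C ≤ Y := by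
    refine le_trans ?_ (le_sup_right.trans (le_sup_left (b := Fix θ₀)))
    exact Subgroup.centralizer_le (le_iSup (fun S : Sylow p K' => Cfsg.omegaOne p ((S : Subgroup K') ⊓ Subgroup.centralizer ((S : Subgroup K') : Set K'))) S)
  set WΓ : Subgroup L := (Y.map (piV V)).subgroupOf L with hWΓ
  have hfix : ∀ d, (∀ w, θ w d = d) → d ∈ WΓ := by
    rintro ⟨_, k, hk, rfl⟩ hd
    have hk1 : ∀ w, θ₀ w k * k⁻¹ ∈ C := by
      intro w
      have e1 := congrArg Subtype.val (hd w)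
      have e2 : piV V (θ₀ w k) = piV V k := (hθ2 w k hk ⟨k, hk, rfl⟩).symm.trans e1
      rw [← hker, MonoidHom.mem_ker, map_mul, map_inv, e2, mul_inv_cancel]
    obtain ⟨c, hc, hc2⟩ := hlift k hk1
    refine ⟨c, hFY hc, ?_⟩
    rw [← hker] at hc2
    exact eq_of_mem_ker _ hc2
  have hT₀ : ∀ c ∈ {c : L | ∃ e f, TV (ρ.comp L.subtype) c e f}, ∃ e f, TV (ρ.comp L.subtype) c e f :=
    fun c hc => hc
  have hcls : ∀ a, (∃ e f, TV (ρ.comp L.subtype) a e f) → cls O a ≤ WΓ := by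
    rintro a ⟨e, f, hTa⟩
    obtain ⟨x, Ca⟩ := exists_ctx (D.faithL L) hOn hOc hS1 hTa
    have h6 : (Nat.card X).Coprime 6 := Nat.Coprime.coprime_dvd_right (six_dvd Ca) hRΓ
    obtain ⟨B, ⟨A, hA, rfl⟩, t, ht, e₂, f₂, x₂, Ct, htE⟩ :=
      exists_tv_mem hS1 (best_fam D hVe rfl) sSup_fam Ca hcl
    obtain ⟨α, hα, eα⟩ := ht
    set T := J ⊔ C with hTdef
    haveI hJn : J.Normal := thompson_normal p
    haveI hTn : T.Normal := Subgroup.sup_normal _ _
    have hAJ : A ≤ J := le_sSup hA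
    have hAT : A ≤ T := hAJ.trans le_sup_left
    have hAp : IsPGroup p (A.subgroupOf T) :=
      (isPGroup_of_isElementaryAbelian hA.1).comap_subtype
    obtain ⟨u, hu⟩ := exists_conj_le_sylow (Cfsg.Agent.Lib.Core.SylowFacts.sylowOfNormal S T) hAp
    have huL : piV V u ∈ L := by
      have h1 : (u : K') ∈ J ⊔ (piV V).ker := by
        rw [hker]
        exact u.2
      rw [← Subgroup.comap_map_eq] at h1
      exact h1
    set ub : L := ⟨piV V u, huL⟩ with hub
    set a₁ := ub * t * ub⁻¹ with ha₁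
    have ha₁E : a₁ ∈ cls O a := (cls_normal hcl hT₀ hS1 Ca).conj_mem t htE ub
    have hconjS : ∀ β ∈ A, (u : K') * β * (u : K')⁻¹ ∈ (S : Subgroup K') := by
      intro β hβ
      have h1 : (⟨β, hAT hβ⟩ : T) ∈ A.subgroupOf T := hβ
      have h2 := hu (Subgroup.mem_map_of_mem _ h1)
      exact h2
    have ha₁Y : a₁ ∈ WΓ := by
      refine ⟨(u : K') * α * (u : K')⁻¹, ?_, ?_⟩
      · apply hNY
        apply Subgroup.le_normalizer
        have hA' : A.map (MulAut.conj (u : K')).toMonoidHom ∈ Cfsg.maxElementaryAbelianSubgroups p K' :=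
          map_max _ hA
        have hA'S : A.map (MulAut.conj (u : K')).toMonoidHom ≤ S := by
          rintro _ ⟨β, hβ, rfl⟩
          exact hconjS β hβ
        exact le_thompsonSubgroupOf S hA' hA'S ⟨α, hα, rfl⟩
      · show piV V ((u : K') * α * (u : K')⁻¹) = ((ub * t * ub⁻¹ : L) : K' ⧸ Subgroup.centralizer (V : Set K'))
        rw [map_mul, map_mul, map_inv]
        have e3 : piV V α = (t : K' ⧸ Subgroup.centralizer (V : Set K')) := eα
        rw [e3]
        rfl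
    have hTV₁ : TV (ρ.comp L.subtype) a₁ _ _ := Ct.tv.conj ub
    obtain ⟨x₁, C₁⟩ := exists_ctx (D.faithL L) hOn hOc hS1 hTV₁
    have hE : cls O a₁ = cls O a := by
      rcases dichotomy Ca C₁ with ⟨-, h1⟩ | ⟨-, h1, -⟩
      · exact h1
      · exfalso
        have h2 : a₁ ∈ cls O a ⊓ stab (ρ.comp L.subtype) (FFDicho.comm (ρ.comp L.subtype) (cls O a)) :=
          ⟨ha₁E, fun π hπ => h1 hπ a₁ (self_mem_cls O a₁)⟩
        rw [cls_inf_stab Ca] at h2
        apply C₁.hne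
        rw [Subgroup.mem_bot.mp h2]
        group
    rw [← hE]
    exact cls_le h hOinv h6 hRΓ hcl hT₀ hS1 C₁ hfix ha₁Y
  have htop : (⊤ : Subgroup L) ≤ WΓ := by
    rw [← hcl, Subgroup.closure_le]
    intro a ha
    exact hcls a ha (self_mem_cls O a)
  haveI hJn : J.Normal := thompson_normal p
  set T := J ⊔ C with hTdef
  haveI hTn : T.Normal := Subgroup.sup_normal _ _
  have hTY : T ≤ Y := by
    intro t ht
    have h1 : piV V t ∈ L := by
      have h2 : t ∈ J ⊔ (piV V).ker := by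
        rw [hker]
        exact ht
      rw [← Subgroup.comap_map_eq] at h2
      exact h2
    obtain ⟨y, hy, ey⟩ := htop (show (⟨piV V t, h1⟩ : L) ∈ ⊤ from trivial)
    have h3 : y⁻¹ * t ∈ C := by
      rw [← hker, MonoidHom.mem_ker, map_mul, map_inv]
      have ey' : piV V y = piV V t := ey
      rw [ey', inv_mul_cancel]
    have h4 : t = y * (y⁻¹ * t) := by group
    rw [h4]
    exact Y.mul_mem hy (hCY h3)
  have hJS : Cfsg.thompsonSubgroupOf p (S : Subgroup K') ≤ T :=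
    thompsonSubgroupOf_le S fun A hA _ => (le_sSup hA).trans (le_sup_left (a := J))
  rw [eq_top_iff]
  intro g _
  obtain ⟨n, hn, c, hc, rfl⟩ := exists_mul_of_sylow S T g
  exact Y.mul_mem (hNY (normalizer_inf_le S T hJS hn)) (hTY hc)

section ambient

variable {G : Type u} [Group G] [Finite G] {p : ℕ} [Fact p.Prime] {q : ℕ} [Fact q.Prime]
  {K X : Subgroup G}

/-- The conjugation action. -/
def conjAct (hXK : X ≤ Subgroup.normalizer (K : Set G)) : X →* MulAut K :=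
  K.normalizerMonoidHom.comp (Subgroup.inclusion hXK)

theorem conjAct_coe (hXK : X ≤ Subgroup.normalizer (K : Set G)) (x : X) (k : K) :
    ((conjAct hXK x k : K) : G) = x * k * (x : G)⁻¹ := rfl

theorem fix_conjAct (hXK : X ≤ Subgroup.normalizer (K : Set G)) :
    Fix (conjAct hXK) = (Subgroup.centralizer (X : Set G)).subgroupOf K := by
  ext k
  rw [Subgroup.mem_subgroupOf, mem_Fix, Subgroup.mem_centralizer_iff]
  constructor
  · intro h x hx
    have h1 := congrArg Subtype.val (h ⟨x, hx⟩)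
    have h2 : x * k * x⁻¹ = k := h1
    calc x * k = (x * k * x⁻¹) * x := by group
      _ = k * x := by rw [h2]
  · intro h x
    apply Subtype.ext
    show (x : G) * k * (x : G)⁻¹ = k
    rw [h x x.2]
    group

theorem coprime_of_ea (hX : Cfsg.IsElementaryAbelian q X) (hq : ¬ q ∣ Nat.card K) :
    (Nat.card X).Coprime (Nat.card K) := by
  obtain ⟨n, hn⟩ := IsPGroup.iff_card.mp (isPGroup_of_isElementaryAbelian hX)
  rw [hn]
  exact Nat.Coprime.pow_left n ((Nat.Prime.coprime_iff_not_dvd Fact.out).mpr hq)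

theorem lifts_conjAct (hXK : X ≤ Subgroup.normalizer (K : Set G))
    (hX : Cfsg.IsElementaryAbelian q X) (hq : ¬ q ∣ Nat.card K) :
    Lifts (conjAct hXK) (Subgroup.centralizer ((omegaV p K : Subgroup K) : Set K)) := by
  haveI hVn : (omegaV p K).Normal := omegaV_normal
  set C := Subgroup.centralizer ((omegaV p K : Subgroup K) : Set K) with hC
  have hCn : C.Normal := inferInstance
  intro k hk
  set N := C.map K.subtype with hN
  have hcop := coprime_of_ea hX hq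
  have hsolv : Group.IsSolvable X ∨ Group.IsSolvable K := by
    left
    refine Group.isSolvable_of_comm fun a b => ?_
    exact Subtype.ext (comm_of_isMulCommutative hX.1 a.2 b.2)
  have hNK : N ≤ K := Subgroup.map_subtype_le _
  have hKN : K ≤ Subgroup.normalizer (N : Set G) := by
    have h1 := Subgroup.le_normalizer_map (H := C) K.subtype
    rw [Subgroup.normalizer_eq_top_iff.mpr hCn, ← MonoidHom.range_eq_map, Subgroup.range_subtype] at h1
    exact h1
  have hAN : X ≤ Subgroup.normalizer (N : Set G) := by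
    intro x hx
    apply Cfsg.Agent.Lib.Core.CoprimeMap.mem_normalizer_of_forall_conj_mem
    rintro _ ⟨c, hc, rfl⟩
    refine ⟨conjAct hXK ⟨x, hx⟩ c, ?_, rfl⟩
    show _ ∈ C
    refine Subgroup.mem_centralizer_iff.mpr fun v hv => ?_
    have hv' : conjAct hXK (⟨x, hx⟩ : X)⁻¹ v ∈ omegaV p K := omegaV_aut _ hv
    have h2 := Subgroup.mem_centralizer_iff.mp hc _ hv'
    have h3 := congrArg (conjAct hXK ⟨x, hx⟩) h2
    rw [map_mul, map_mul] at h3
    have h4 : conjAct hXK ⟨x, hx⟩ (conjAct hXK (⟨x, hx⟩ : X)⁻¹ v) = v := by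
      rw [map_inv]
      exact MulAut.apply_inv_self _ _ _
    rwa [h4] at h3
  have hfix : ∀ a ∈ X, a * (k : G) * a⁻¹ * (k : G)⁻¹ ∈ N := by
    intro a ha
    exact ⟨_, hk ⟨a, ha⟩, rfl⟩
  obtain ⟨c, ⟨hcK, hcX⟩, hcN⟩ := Cfsg.Agent.Lib.Coprime.Action.exists_fixed_of_fixed_mod N hXK hcop hsolv hNK hKN hAN k.2 hfix
  refine ⟨⟨c, hcK⟩, ?_, ?_⟩
  · rw [fix_conjAct]
    exact hcX
  · obtain ⟨z, hz, ez⟩ := hcN
    have : k⁻¹ * ⟨c, hcK⟩ = z := by
      apply Subtype.ext
      exact ez.symm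
    rw [this]
    exact hz

/-- S0620. -/
theorem s0620 (K X : Subgroup G) (hXK : X ≤ Subgroup.normalizer (K : Set G))
    (hX : Cfsg.IsElementaryAbelian q X) (hq : ¬ q ∣ Nat.card K) (hsep : Cfsg.IsPSolvable p ↥K)
    (hO : Cfsg.pPrimeCore p ↥K = ⊥) (S : Sylow p ↥K) :
    (Subgroup.normalizer (Cfsg.thompsonSubgroupOf p (S : Subgroup ↥K) : Set ↥K) ⊔ Subgroup.centralizer (Cfsg.omegaOne p ((S : Subgroup ↥K) ⊓ Subgroup.centralizer ((S : Subgroup ↥K) : Set ↥K)) : Set ↥K) ⊔ (Subgroup.centralizer (X : Set G)).subgroupOf K) = ⊤ := by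
  have h := main620 hsep hO (conjAct hXK) (coprime_of_ea hX hq) (lifts_conjAct hXK hX hq) S
  rwa [fix_conjAct] at h

end ambient

end Cfsg.Agent.Lib.QuadAct.FFX
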