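import Cfsg.Agent.Lib.QuadAct.FFX

/-!
# Coprime operators and failure of factorization: a plane in the fixed points
-/

set_option autoImplicit false
set_option linter.unusedSectionVars false
set_option linter.unusedSimpArgs false
set_option linter.style.haveILetI false

open scoped commutatorElement
open Module

namespace Cfsg.Agent.Lib.QuadAct.FFY

open Cfsg.Agent.Lib.QuadAct.FFBasic Cfsg.Agent.Lib.QuadAct.ThmA
open Cfsg.Agent.Lib.QuadAct.FFTrans Cfsg.Agent.Lib.QuadAct.FFTriple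
open Cfsg.Agent.Lib.QuadAct.FFGen Cfsg.Agent.Lib.QuadAct.FFPlane
open Cfsg.Agent.Lib.QuadAct.FFSL2 Cfsg.Agent.Lib.QuadAct.FFDicho
open Cfsg.Agent.Lib.QuadAct.FFMin
open Cfsg.Agent.Lib.QuadAct.FFQuot Cfsg.Agent.Lib.QuadAct.FFFail
open Cfsg.Agent.Lib.QuadAct.FFEquiv Cfsg.Agent.Lib.QuadAct.FFX Cfsg.Agent.Lib.QuadAct.FFStruct
open Cfsg.Agent.Lib.QuadAct.Replacement Cfsg.Agent.Lib.QuadAct.Basic
open Cfsg.Agent.Lib.QuadAct.Stable Cfsg.Agent.Lib.QuadAct.OmegaZ
open Cfsg.Agent.Lib.Core.Basic Cfsg.Agent.Lib.Core.PSolvable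
open Cfsg.Agent.Lib.QuadAct.ZJ

universe u w

section rep

variable {p : ℕ} [Fact p.Prime] {Γ : Type*} [Group Γ] [Finite Γ] {M : Type*} [AddCommGroup M]
  [Module (ZMod p) M] [Finite M] {ρ : Γ →* Module.End (ZMod p) M}
  {O : Subgroup Γ} {a x : Γ} {e : M} {f : M →ₗ[ZMod p] ZMod p}

/-- The plane is invariant under `Γ`. -/
theorem pl_inv_all (hn : (cls O a).Normal) (C : Ctx ρ O a e f x) (γ : Γ) {π : M}
    (hπ : π ∈ pl (p := p) e (ρ x e)) : ρ γ π ∈ pl (p := p) e (ρ x e) := by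
  rw [← comm_eq_pl C] at hπ ⊢
  unfold FFDicho.comm at hπ ⊢
  induction hπ using Submodule.span_induction with
  | mem m hm =>
    obtain ⟨g, hg, w, rfl⟩ := hm
    refine Submodule.subset_span ⟨γ * g * γ⁻¹, hn.conj_mem g hg γ, ρ γ w, ?_⟩
    rw [map_sub, ← Module.End.mul_apply, ← Module.End.mul_apply, ← map_mul, ← map_mul]
    congr 2
    group
  | zero => rw [map_zero]; exact Submodule.zero_mem _
  | add u v _ _ hu hv => rw [map_add]; exact Submodule.add_mem _ hu hv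
  | smul c u _ hu => rw [map_smul]; exact Submodule.smul_mem _ _ hu

theorem stab_normal (hn : (cls O a).Normal) (C : Ctx ρ O a e f x) :
    (stab ρ (FFDicho.comm ρ (cls O a))).Normal := by
  constructor
  intro y hy γ π hπ
  have hπ' : π ∈ pl (p := p) e (ρ x e) := by rwa [comm_eq_pl C] at hπ
  have h1 : ρ γ⁻¹ π ∈ FFDicho.comm ρ (cls O a) := by
    rw [comm_eq_pl C]
    exact pl_inv_all hn C _ hπ'
  rw [map_mul, map_mul, Module.End.mul_apply, Module.End.mul_apply, hy _ h1, rho_apply_inv_cancel]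

/-- The quotient by the stabilizer of the plane is the class. -/
theorem quot_equiv {T : Set Γ} (hgen : Subgroup.closure T = ⊤) (hT : ∀ c ∈ T, ∃ e₂ f₂, TV ρ c e₂ f₂)
    (hS : Subgroup.centralizer (O : Set Γ) ≤ O) (C : Ctx ρ O a e f x)
    (hn : (stab ρ (FFDicho.comm ρ (cls O a))).Normal) :
    Nonempty ((Γ ⧸ stab ρ (FFDicho.comm ρ (cls O a))) ≃* cls O a) := by
  have hEn := cls_normal hgen hT hS C
  let j : cls O a →* Γ ⧸ stab ρ (FFDicho.comm ρ (cls O a)) :=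
    (QuotientGroup.mk' _).comp (cls O a).subtype
  have hj : Function.Bijective j := by
    constructor
    · rw [injective_iff_map_eq_one]
      rintro ⟨g, hg⟩ h1
      have h2 : g ∈ stab ρ (FFDicho.comm ρ (cls O a)) := (QuotientGroup.eq_one_iff g).mp h1
      have h3 : g ∈ cls O a ⊓ stab ρ (FFDicho.comm ρ (cls O a)) := ⟨hg, h2⟩
      rw [cls_inf_stab C] at h3
      exact Subtype.ext (Subgroup.mem_bot.mp h3)
    · intro q
      obtain ⟨γ, rfl⟩ := QuotientGroup.mk_surjective q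
      have h1 : γ ∈ cls O a ⊔ stab ρ (FFDicho.comm ρ (cls O a)) := by
        rw [cls_sup_stab hgen hT hS C]
        trivial
      rw [Subgroup.mem_sup_of_normal_right] at h1
      obtain ⟨y, hy, s, hs, rfl⟩ := h1
      refine ⟨⟨y, hy⟩, ?_⟩
      show (QuotientGroup.mk y : Γ ⧸ _) = QuotientGroup.mk (y * s)
      rw [QuotientGroup.eq]
      have : y⁻¹ * (y * s) = s := by group
      rwa [this]
  exact ⟨(MulEquiv.ofBijective j hj).symm⟩

end rep

variable {K' : Type u} [Group K'] [Finite K'] {p : ℕ} [Fact p.Prime] {X : Type w} [Group X]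
  [Finite X]

section coord

variable {V : Subgroup K'} [V.Normal] {M : Type u} [AddCommGroup M]
  [Module (ZMod p) M] [Finite M] {ρ : K' ⧸ Subgroup.centralizer (V : Set K') →* Module.End (ZMod p) M}
  {ι : M → K'}

theorem coord_zero (D : IsCoordQ V ρ ι) : ι 0 = 1 := by
  have h := D.add 0 0
  rw [add_zero] at h
  exact left_eq_mul.mp h

theorem coord_neg (D : IsCoordQ V ρ ι) (m : M) : ι (-m) = (ι m)⁻¹ := by
  rw [eq_inv_iff_mul_eq_one, ← D.add, neg_add_cancel, coord_zero D]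

/-- Submodules as subgroups. -/
def toK (D : IsCoordQ V ρ ι) (s : Submodule (ZMod p) M) : Subgroup K' where
  carrier := ι '' s
  one_mem' := ⟨0, s.zero_mem, coord_zero D⟩
  mul_mem' := by
    rintro _ _ ⟨m, hm, rfl⟩ ⟨n, hn, rfl⟩
    exact ⟨m + n, s.add_mem hm hn, D.add m n⟩
  inv_mem' := by
    rintro _ ⟨m, hm, rfl⟩
    exact ⟨-m, s.neg_mem hm, coord_neg D m⟩

theorem card_toK (D : IsCoordQ V ρ ι) (s : Submodule (ZMod p) M) :
    Nat.card (toK D s) = Nat.card s := by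
  refine Nat.card_congr (Equiv.symm (Equiv.ofBijective
    (fun m : s => (⟨ι m, ⟨m, m.2, rfl⟩⟩ : toK D s)) ⟨?_, ?_⟩))
  · intro m n hmn
    exact Subtype.ext (D.inj (congrArg Subtype.val hmn))
  · rintro ⟨_, m, hm, rfl⟩
    exact ⟨⟨m, hm⟩, rfl⟩

theorem toK_le (D : IsCoordQ V ρ ι) (s : Submodule (ZMod p) M) : toK D s ≤ V := by
  rintro _ ⟨m, -, rfl⟩
  exact D.mem m

end coord

theorem main621 (hsep : Cfsg.IsPSolvable p K') (hO : Cfsg.pPrimeCore p K' = ⊥)
    (θ₀ : X →* MulAut K') (hcop : (Nat.card X).Coprime (Nat.card K'))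
    (hlift : Lifts θ₀ (Subgroup.centralizer ((omegaV p K' : Subgroup K') : Set K')))
    (hnf : ¬ Cfsg.IsThompsonFactorizable p K') :
    (p = 2 ∨ p = 3) ∧ ∃ W D₀ : Subgroup K', W ≤ Fix θ₀ ∧ D₀ ≤ Fix θ₀ ∧
      Cfsg.IsElementaryAbelian p W ∧ Nat.card W = p ^ 2 ∧ D₀ ≤ Subgroup.normalizer (W : Set K') ∧
      ∃ hn : ((Subgroup.centralizer (W : Set K')).subgroupOf D₀).Normal,
        Nonempty ((↥D₀ ⧸ (Subgroup.centralizer (W : Set K')).subgroupOf D₀) ≃*
          Matrix.SpecialLinearGroup (Fin 2) (ZMod p)) := by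
  haveI hVn : (omegaV p K').Normal := omegaV_normal
  set V := omegaV p K' with hVdef
  have hVe : Cfsg.IsElementaryAbelian p V := omegaV_ea hsep hO
  have hpc : Cfsg.pCore p (K' ⧸ Subgroup.centralizer (V : Set K')) = ⊥ := omegaV_pCore
  obtain ⟨M, _, _, _, ρ, ι, D⟩ := exists_coordQ (p := p) hVe
  obtain ⟨τ, hτ⟩ := exists_tau (θ₀ := θ₀) D (fun x v hv => omegaV_aut (θ₀ x) hv)
  set J := Cfsg.thompsonSubgroup p K' with hJ
  have hJinv : ∀ x, ∀ k ∈ J, θ₀ x k ∈ J := fun x k hk => thompson_aut (θ₀ x) hk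
  set L := J.map (piV V) with hL
  obtain ⟨θ, hθ1, hθ2⟩ := exists_theta D hτ hJinv
  have h : Equi (ρ.comp L.subtype) τ θ := ⟨D.faithL L, fun x γ m => hθ1 x γ m⟩
  have hLn : L.Normal := (thompson_normal p).map _ piV_surj
  have hsep' := isPSolvable_of_surjective (piV V) piV_surj hsep
  have hS1 := hS1_of hsep' hpc hLn
  have hgen := D.hgen_J hVe (L := L) rfl
  have hcl := closure_tvs' (D.faithL L) hS1 hgen
  set O := Cfsg.pPrimeCore p ↥L with hOdef
  have hOn : O.Normal := inferInstance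
  have hOc : (Nat.card O).Coprime p := pPrimeCore_coprime
  have hOinv : ∀ x, ∀ z ∈ O, θ x z ∈ O := by
    intro x z hz
    have e1 : O.comap (h.thetaE x).toMonoidHom = O :=
      (inferInstance : O.Characteristic).fixed (h.thetaE x)
    rw [← e1] at hz
    exact hz
  have hRΓ : (Nat.card X).Coprime (Nat.card L) := by
    refine Nat.Coprime.coprime_dvd_right ?_ hcop
    exact (Subgroup.card_subgroup_dvd_card L).trans (Subgroup.card_quotient_dvd_card _)
  set C := Subgroup.centralizer (V : Set K') with hC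
  have hker : (piV V).ker = C := piV_ker
  have hT₀ : ∀ c ∈ {c : L | ∃ e f, TV (ρ.comp L.subtype) c e f}, ∃ e f, TV (ρ.comp L.subtype) c e f :=
    fun c hc => hc
  have hJC : ¬ J ≤ C := fun h' =>
    hnf (factorizable_of_le V (fun S => le_iSup (fun S : Sylow p K' => Cfsg.omegaOne p ((S : Subgroup K') ⊓ Subgroup.centralizer ((S : Subgroup K') : Set K'))) S) h')
  have hne : Nontrivial L := by
    rw [Subgroup.nontrivial_iff_ne_bot]
    intro h'
    apply hJC
    have h1 : J ≤ (piV V).ker := (Subgroup.map_eq_bot_iff _).mp h'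
    rwa [hker] at h1
  have hex : {c : L | ∃ e f, TV (ρ.comp L.subtype) c e f}.Nonempty := by
    by_contra h'
    rw [Set.not_nonempty_iff_eq_empty] at h'
    rw [h', Subgroup.closure_empty] at hcl
    obtain ⟨u, v, huv⟩ := hne
    have hu : u ∈ (⊥ : Subgroup L) := by rw [hcl]; trivial
    have hv : v ∈ (⊥ : Subgroup L) := by rw [hcl]; trivial
    exact huv (by rw [Subgroup.mem_bot.mp hu, Subgroup.mem_bot.mp hv])
  obtain ⟨a, e, f, hTa⟩ := hex
  obtain ⟨x, Ca⟩ := exists_ctx (D.faithL L) hOn hOc hS1 hTa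
  have h6 : (Nat.card X).Coprime 6 := Nat.Coprime.coprime_dvd_right (six_dvd Ca) hRΓ
  have hEn := cls_normal hcl hT₀ hS1 Ca
  have hSn := stab_normal hEn Ca
  letI := Fintype.ofFinite X
  set N₀ := Equi.NN τ with hN₀
  set P := pl (p := p) e ((ρ.comp L.subtype) x e) with hP
  set W := toK D (P.map N₀) with hW
  haveI hJn : J.Normal := thompson_normal p
  set T := J ⊔ C with hTdef
  haveI hTn : T.Normal := Subgroup.sup_normal _ _
  set D₀ := T ⊓ Fix θ₀ with hD₀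
  have hTL : ∀ c ∈ T, piV V c ∈ L := by
    intro c hc
    have h2 : c ∈ J ⊔ (piV V).ker := by
      rw [hker]
      exact hc
    rw [← Subgroup.comap_map_eq] at h2
    exact h2
  have hfixc : ∀ c ∈ Fix θ₀, ∀ hc : piV V c ∈ L, ∀ w, θ w ⟨piV V c, hc⟩ = ⟨piV V c, hc⟩ := by
    intro c hc hc' w
    apply D.faithL L
    ext m
    have e1 : m = τ w (τ w⁻¹ m) := (rho_apply_inv_cancel w m).symm
    rw [e1]
    show ρ ((θ w ⟨piV V c, hc'⟩ : L) : _) (τ w _) = ρ (piV V c) (τ w _)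
    rw [hθ1 w ⟨piV V c, hc'⟩]
    have e2 := itw_pi D hτ w c (τ w⁻¹ m)
    rw [hc w] at e2
    exact e2.symm
  have hact : ∀ c (hc : piV V c ∈ L) (m : M), c * ι m * c⁻¹ = ι ((ρ.comp L.subtype) ⟨piV V c, hc⟩ m) :=
    fun c hc m => (D.conj c m).symm
  have hWact : ∀ c ∈ D₀, ∀ (hc : piV V c ∈ L) (m : M),
      c * ι (N₀ m) * c⁻¹ = ι (N₀ ((ρ.comp L.subtype) ⟨piV V c, hc⟩ m)) := by
    intro c hc hc' m
    rw [hact c hc' (N₀ m)]
    congr 1
    exact h.NN_comm (hfixc c hc.2 hc') m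
  have hNinj : ∀ u ∈ P, ∀ v ∈ P, N₀ u = N₀ v → u = v := by
    intro u hu v hv huv
    have h1 : N₀ (u - v) = 0 := by rw [map_sub, huv, sub_self]
    have h2 := h.NN_inj hOinv Ca h6 hRΓ (Submodule.sub_mem _ hu hv) h1
    exact sub_eq_zero.mp h2
  -- the card of `W`
  have hWcard : Nat.card W = p ^ 2 := by
    rw [hW, card_toK D, ← card_pl Ca]
    refine Nat.card_congr (Equiv.symm (Equiv.ofBijective
      (fun u : P => (⟨N₀ u, ⟨u, u.2, rfl⟩⟩ : P.map N₀)) ⟨?_, ?_⟩))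
    · intro u v huv
      exact Subtype.ext (hNinj _ u.2 _ v.2 (congrArg Subtype.val huv))
    · rintro ⟨_, u, hu, rfl⟩
      exact ⟨⟨u, hu⟩, rfl⟩
  have hWF : W ≤ Fix θ₀ := by
    rintro _ ⟨_, ⟨u, hu, rfl⟩, rfl⟩ w
    show θ₀ w (ι (N₀ u)) = ι (N₀ u)
    rw [← hτ]
    congr 1
    exact Equi.NN_fix (τ := τ) w u
  have hWEA : Cfsg.IsElementaryAbelian p W := IsElementaryAbelian_of_le hVe (toK_le D _)
  have hDN : D₀ ≤ Subgroup.normalizer (W : Set K') := by
    intro c hc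
    apply Cfsg.Agent.Lib.Core.CoprimeMap.mem_normalizer_of_forall_conj_mem
    rintro _ ⟨_, ⟨u, hu, rfl⟩, rfl⟩
    have hc' := hTL c hc.1
    rw [hWact c hc hc' u]
    exact ⟨_, ⟨_, pl_inv_all hEn Ca _ hu, rfl⟩, rfl⟩
  refine ⟨Ca.hp, W, D₀, hWF, inf_le_right, hWEA, hWcard, hDN, ?_⟩
  -- the homomorphism
  set S₀ := stab (ρ.comp L.subtype) (FFDicho.comm (ρ.comp L.subtype) (cls O a)) with hS₀
  haveI : S₀.Normal := hSn
  let ψ : D₀ →* L := ((piV V).comp D₀.subtype).codRestrict L (fun c => hTL c c.2.1)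
  let Ψ : D₀ →* L ⧸ S₀ := (QuotientGroup.mk' S₀).comp ψ
  have hΨk : Ψ.ker = (Subgroup.centralizer (W : Set K')).subgroupOf D₀ := by
    ext c
    rw [MonoidHom.mem_ker, Subgroup.mem_subgroupOf]
    have e0 : Ψ c = 1 ↔ ψ c ∈ S₀ := QuotientGroup.eq_one_iff _
    rw [e0]
    have hc' := hTL c c.2.1
    have e1 : ψ c = ⟨piV V c, hc'⟩ := rfl
    rw [e1]
    constructor
    · intro hs
      refine Subgroup.mem_centralizer_iff.mpr ?_
      rintro _ ⟨_, ⟨u, hu, rfl⟩, rfl⟩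
      have h2 := hWact c c.2 hc' u
      have h3 : (ρ.comp L.subtype) ⟨piV V c, hc'⟩ u = u := hs u (by rw [comm_eq_pl Ca]; exact hu)
      rw [h3] at h2
      have h4 : (c : K') * ι (N₀ u) = ι (N₀ u) * c := by
        calc (c : K') * ι (N₀ u) = ((c : K') * ι (N₀ u) * (c : K')⁻¹) * c := by group
          _ = ι (N₀ u) * c := by rw [h2]
      exact h4.symm
    · intro hc u hu
      rw [comm_eq_pl Ca] at hu
      have h2 := hWact c c.2 hc' u
      have h3 := Subgroup.mem_centralizer_iff.mp hc (ι (N₀ u)) ⟨_, ⟨u, hu, rfl⟩, rfl⟩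
      have h4 : (c : K') * ι (N₀ u) * (c : K')⁻¹ = ι (N₀ u) := by
        rw [← h3]
        group
      rw [h4] at h2
      have h5 := D.inj h2
      exact (hNinj _ (pl_inv_all hEn Ca _ hu) _ hu h5.symm)
  have hΨs : Function.Surjective Ψ := by
    intro q
    obtain ⟨γ, rfl⟩ := QuotientGroup.mk_surjective q
    have h1 : γ ∈ cls O a ⊔ S₀ := by
      rw [cls_sup_stab hcl hT₀ hS1 Ca]
      trivial
    rw [Subgroup.mem_sup_of_normal_right] at h1
    obtain ⟨y, hy, s, hs, rfl⟩ := h1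
    obtain ⟨d, hd, hdP⟩ := h.exists_diag hOinv Ca h6 hRΓ hy
    obtain ⟨_, k, hk, hkd⟩ := d
    obtain rfl := hkd
    have hk1 : ∀ w, θ₀ w k * k⁻¹ ∈ C := by
      intro w
      have e1 := congrArg Subtype.val (hd w)
      have e2 : piV V (θ₀ w k) = piV V k := (hθ2 w k hk ⟨k, hk, rfl⟩).symm.trans e1
      rw [← hker, MonoidHom.mem_ker, map_mul, map_inv, e2, mul_inv_cancel]
    obtain ⟨c, hc, hc2⟩ := hlift k hk1
    have hcT : c ∈ T := by
      have e3 : c = k * (k⁻¹ * c) := by group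
      rw [e3]
      exact T.mul_mem (Subgroup.mem_sup_left hk) (Subgroup.mem_sup_right hc2)
    refine ⟨⟨c, hcT, hc⟩, ?_⟩
    have e4 : piV V c = piV V k := eq_of_mem_ker _ (by rwa [hker])
    have e5 : ψ ⟨c, hcT, hc⟩ = ⟨piV V k, ⟨k, hk, rfl⟩⟩ := Subtype.ext e4
    show (QuotientGroup.mk (ψ ⟨c, hcT, hc⟩) : L ⧸ S₀) = QuotientGroup.mk (y * s)
    rw [e5, eq_comm, QuotientGroup.eq]
    have e6 : (y * s)⁻¹ * ⟨piV V k, ⟨k, hk, rfl⟩⟩ = s⁻¹ * (y⁻¹ * ⟨piV V k, ⟨k, hk, rfl⟩⟩) := by group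
    rw [e6]
    refine S₀.mul_mem (S₀.inv_mem hs) ?_
    intro u hu
    rw [comm_eq_pl Ca] at hu
    rw [map_mul, Module.End.mul_apply, hdP u hu, rho_inv_apply_cancel]
  obtain ⟨e₁⟩ := quot_equiv hcl hT₀ hS1 Ca hSn
  haveI hnW : ((Subgroup.centralizer (W : Set K')).subgroupOf D₀).Normal := hΨk ▸ MonoidHom.normal_ker Ψ
  refine ⟨hnW, ?_⟩
  exact ⟨(QuotientGroup.quotientMulEquivOfEq hΨk.symm).trans
    ((QuotientGroup.quotientKerEquivOfSurjective Ψ hΨs).trans (e₁.trans (Ctx.phiEquiv Ca)))⟩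

section ambient

variable {G : Type u} [Group G] [Finite G] {p : ℕ} [Fact p.Prime] {q : ℕ} [Fact q.Prime]

/-- S0621. -/
theorem s0621 (K X : Subgroup G) (hXK : X ≤ Subgroup.normalizer (K : Set G))
    (hX : Cfsg.IsElementaryAbelian q X) (hq : ¬ q ∣ Nat.card K) (hsep : Cfsg.IsPSolvable p ↥K)
    (hO : Cfsg.pPrimeCore p ↥K = ⊥) (hnf : ¬ Cfsg.IsThompsonFactorizable p ↥K) :
    (p = 2 ∨ p = 3) ∧ ∃ W D : Subgroup G, W ≤ K ⊓ Subgroup.centralizer (X : Set G) ∧ D ≤ K ⊓ Subgroup.centralizer (X : Set G) ∧ Cfsg.IsElementaryAbelian p W ∧ Nat.card W = p ^ 2 ∧ D ≤ Subgroup.normalizer (W : Set G) ∧ ∃ hn : ((Subgroup.centralizer (W : Set G)).subgroupOf D).Normal, Nonempty ((↥D ⧸ (Subgroup.centralizer (W : Set G)).subgroupOf D) ≃* Matrix.SpecialLinearGroup (Fin 2) (ZMod p)) := by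
  obtain ⟨hp, W, D₀, hWF, hDF, hWe, hWc, hDN, hn, ⟨e⟩⟩ :=
    main621 hsep hO (conjAct hXK) (coprime_of_ea hX hq) (lifts_conjAct hXK hX hq) hnf
  rw [fix_conjAct] at hWF hDF
  have hle : ∀ Y : Subgroup K, Y ≤ (Subgroup.centralizer (X : Set G)).subgroupOf K →
      Y.map K.subtype ≤ K ⊓ Subgroup.centralizer (X : Set G) := by
    rintro Y hY _ ⟨y, hy, rfl⟩
    exact ⟨y.2, hY hy⟩
  set ε : D₀ ≃* D₀.map K.subtype := Subgroup.equivMapOfInjective _ _ K.subtype_injective with hε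
  have he : ((Subgroup.centralizer (W : Set K)).subgroupOf D₀).map ε.toMonoidHom =
      (Subgroup.centralizer ((W.map K.subtype : Subgroup G) : Set G)).subgroupOf (D₀.map K.subtype) := by
    ext d
    rw [Subgroup.mem_subgroupOf]
    constructor
    · rintro ⟨c, hc, rfl⟩
      have hc' : (c : K) ∈ Subgroup.centralizer (W : Set K) := hc
      refine Subgroup.mem_centralizer_iff.mpr ?_
      rintro _ ⟨w, hw, rfl⟩
      exact congrArg Subtype.val (Subgroup.mem_centralizer_iff.mp hc' w hw)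
    · intro hd
      refine ⟨ε.symm d, ?_, ε.apply_symm_apply d⟩
      show ((ε.symm d : D₀) : K) ∈ Subgroup.centralizer (W : Set K)
      refine Subgroup.mem_centralizer_iff.mpr fun w hw => ?_
      have h1 := Subgroup.mem_centralizer_iff.mp hd (w : G) ⟨w, hw, rfl⟩
      apply Subtype.ext
      have h2 : (((ε.symm d : D₀) : K) : G) = d := by
        have := ε.apply_symm_apply d
        exact congrArg Subtype.val this
      show (w : G) * (((ε.symm d : D₀) : K) : G) = (((ε.symm d : D₀) : K) : G) * w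
      rw [h2]
      exact h1
  haveI hnG : ((Subgroup.centralizer ((W.map K.subtype : Subgroup G) : Set G)).subgroupOf (D₀.map K.subtype)).Normal := by
    rw [← he]
    exact hn.map _ ε.surjective
  refine ⟨hp, W.map K.subtype, D₀.map K.subtype, hle W hWF, hle D₀ hDF,
    isElementaryAbelian_map hWe _, ?_, ?_, hnG, ?_⟩
  · rw [← hWc]
    exact Nat.card_congr (Subgroup.equivMapOfInjective _ _ K.subtype_injective).symm.toEquiv
  · have h1 := Subgroup.le_normalizer_map (H := W) K.subtype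
    exact (Subgroup.map_mono hDN).trans h1
  · exact ⟨(QuotientGroup.congr _ _ ε he).symm.trans e⟩

end ambient

end Cfsg.Agent.Lib.QuadAct.FFY
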