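import Cfsg.Agent.Lib.QuadAct.Stable
import Cfsg.Agent.Lib.Subnormal.Basic
import Cfsg.Agent.Lib.Coprime.Action
import Cfsg.Agent.Lib.Core.CoprimeMap

/-!
# Subnormal subgroups with `[V, E₁, E₂] = 1`
-/

set_option autoImplicit false

open scoped commutatorElement Pointwise

namespace Cfsg.Agent.Lib.QuadAct.SubnormalComm

open Cfsg.Agent.Lib.QuadAct.Basic Cfsg.Agent.Lib.Core.Basic Cfsg.Agent.Lib.Subnormal.Basic

variable {G : Type*} [Group G] [Finite G] {p : ℕ}

/-- The subgroup of elements acting trivially on `V / U`. -/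
theorem commutator_sup_le {V U A B : Subgroup G} (hU : U ≤ V) (hAU : ⁅V, A⁆ ≤ U)
    (hBU : ⁅V, B⁆ ≤ U) : ⁅V, A ⊔ B⁆ ≤ U := by
  have hn : ∀ y : G, (∀ v ∈ V, ⁅v, y⁆ ∈ U) → y ∈ Subgroup.normalizer (U : Set G) := by
    intro y hy
    refine Cfsg.Agent.Lib.Core.CoprimeMap.mem_normalizer_of_forall_conj_mem fun u hu => ?_
    have h1 := hy _ (hU (U.inv_mem hu))
    have e : y * u * y⁻¹ = u * (u⁻¹ * (y * u * y⁻¹)) := by group
    have e2 : ⁅u⁻¹, y⁆ = (u⁻¹ * (y * u * y⁻¹)) := by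
      simp only [commutatorElement_def, inv_inv]; group
    rw [← e2] at e
    rw [e]
    exact U.mul_mem hu h1
  let Q : Subgroup G :=
    { carrier := {y | ∀ v ∈ V, ⁅v, y⁆ ∈ U}
      one_mem' := fun v _ => by simp [commutatorElement_def, U.one_mem]
      mul_mem' := by
        intro x y hx hy v hv
        have e : ⁅v, x * y⁆ = ⁅v, x⁆ * (x * ⁅v, y⁆ * x⁻¹) := by
          simp only [commutatorElement_def]; group
        rw [e]
        exact U.mul_mem (hx v hv) ((Subgroup.mem_normalizer_iff.mp (hn x hx) _).mp (hy v hv))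
      inv_mem' := by
        intro x hx v hv
        have e : ⁅v, x⁻¹⁆ = x⁻¹ * (⁅v, x⁆)⁻¹ * x⁻¹⁻¹ := by
          simp only [commutatorElement_def]; group
        rw [e]
        have hnx : x⁻¹ ∈ Subgroup.normalizer (U : Set G) := Subgroup.inv_mem _ (hn x hx)
        exact (Subgroup.mem_normalizer_iff.mp hnx _).mp (U.inv_mem (hx v hv)) }
  have hAB : A ⊔ B ≤ Q := by
    refine sup_le ?_ ?_
    · exact fun a ha v hv => hAU (Subgroup.commutator_mem_commutator hv ha)
    · exact fun a ha v hv => hBU (Subgroup.commutator_mem_commutator hv ha)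
  rw [Subgroup.commutator_le]
  exact fun v hv y hy => hAB hy v hv

variable [Fact p.Prime]

theorem le_pCore_of_SN {V H D : Subgroup G} (hV : Cfsg.IsElementaryAbelian p V)
    (hHV : H ≤ Subgroup.normalizer (V : Set G))
    (hf : H ⊓ Subgroup.centralizer (V : Set G) = ⊥) (hDH : D ≤ H) (hSN : SN D H)
    (hq : ⁅⁅V, D⁆, D⁆ = ⊥) : D ≤ (Cfsg.pCore p H).map H.subtype := by
  have hp : ∀ d ∈ D, d ^ p = 1 := by
    intro d hd
    have h1 := pow_mem_centralizer_of_quadratic hV (hDH.trans hHV) hq hd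
    have h2 : d ^ p ∈ H ⊓ Subgroup.centralizer (V : Set G) := ⟨H.pow_mem (hDH hd) p, h1⟩
    rw [hf] at h2
    exact (Subgroup.mem_bot.mp h2)
  have hpg : IsPGroup p (D.subgroupOf H) := by
    rw [isPGroup_iff_pow_pow_eq_one]
    rintro ⟨⟨d, hdH⟩, hd⟩
    refine ⟨1, ?_⟩
    apply Subtype.ext
    apply Subtype.ext
    simpa using hp d hd
  have h := le_pCore_of_isSubnormal (isSubnormal_subgroupOf_of_SN hSN) hpg
  intro d hd
  refine ⟨⟨d, hDH hd⟩, h ?_, rfl⟩
  exact hd

/-- The main theorem. -/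
theorem commutator_le_pCore {V H E₁ E₂ : Subgroup G} (hV : Cfsg.IsElementaryAbelian p V)
    (hHV : H ≤ Subgroup.normalizer (V : Set G))
    (hf : H ⊓ Subgroup.centralizer (V : Set G) = ⊥) (h₁ : SN E₁ H) (h₂ : SN E₂ H)
    (hc : ⁅⁅V, E₁⁆, E₂⁆ = ⊥) : ⁅E₁, E₂⁆ ≤ (Cfsg.pCore p H).map H.subtype := by
  have hne : ({F : Subgroup G × Subgroup G | E₁ ≤ F.1 ∧ E₂ ≤ F.2 ∧ SN F.1 H ∧ SN F.2 H ∧
      ⁅⁅V, F.1⁆, F.2⁆ = ⊥}).Nonempty := ⟨(E₁, E₂), le_rfl, le_rfl, h₁, h₂, hc⟩
  obtain ⟨⟨F₁, F₂⟩, ⟨hE₁, hE₂, hF₁, hF₂, hq⟩, hmax⟩ := Set.exists_max_image _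
    (fun F : Subgroup G × Subgroup G => Nat.card F.1 + Nat.card F.2) (Set.toFinite _) hne
  simp only at hE₁ hE₂ hF₁ hF₂ hq hmax
  have hF₁H := hF₁.le
  have hF₂H := hF₂.le
  have hconjH : ∀ x ∈ H, SN (MulAut.conj x • H) H → True := fun _ _ _ => trivial
  have hconj : ∀ {X : Subgroup G} {x : G}, SN X H → x ∈ H → SN (MulAut.conj x • X) H := by
    intro X x hX hx
    have := hX.conj x
    rwa [conj_eq_of_mem_normalizer (Subgroup.le_normalizer hx)] at this
  set W := ⁅V, F₁⁆ with hW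
  have hWV : W ≤ V := commutator_le_of_le_normalizer (hF₁H.trans hHV)
  have hWC : F₂ ≤ Subgroup.centralizer (W : Set G) := by
    rw [← Subgroup.le_centralizer_iff]
    exact Subgroup.commutator_eq_bot_iff_le_centralizer.mp hq
  -- `F₂` normalizes `F₁`
  have h21 : F₂ ≤ Subgroup.normalizer (F₁ : Set G) := by
    intro x hx
    have hxH := hF₂H hx
    set F' := F₁ ⊔ MulAut.conj x • F₁ with hF'
    have hSN' : SN F' H := hF₁.sup (hconj hF₁ hxH)
    set U := V ⊓ Subgroup.centralizer (F₂ : Set G) with hU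
    have hWU : W ≤ U := by
      refine le_inf hWV ?_
      rw [Subgroup.le_centralizer_iff]
      exact hWC
    have h1 : ⁅V, MulAut.conj x • F₁⁆ ≤ U := by
      rw [Subgroup.commutator_le]
      intro v hv y hy
      rw [mem_conj] at hy
      have hv' : x⁻¹ * v * x ∈ V := by
        have := (Subgroup.mem_normalizer_iff.mp (Subgroup.inv_mem _ (hHV hxH)) v).mp hv
        simpa using this
      have h2 : ⁅x⁻¹ * v * x, x⁻¹ * y * x⁆ ∈ W := Subgroup.commutator_mem_commutator hv' hy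
      have e : ⁅v, y⁆ = x * ⁅x⁻¹ * v * x, x⁻¹ * y * x⁆ * x⁻¹ := by
        simp only [commutatorElement_def]; group
      have hcomm := Subgroup.mem_centralizer_iff.mp (hWC hx) _ h2
      rw [e, ← hcomm]
      simpa using hWU h2
    have h2 : ⁅V, F'⁆ ≤ U := commutator_sup_le inf_le_left hWU h1
    have hq' : ⁅⁅V, F'⁆, F₂⁆ = ⊥ := by
      rw [Subgroup.commutator_eq_bot_iff_le_centralizer]
      refine h2.trans ?_
      exact inf_le_right
    have hcard := hmax (F', F₂) ⟨hE₁.trans le_sup_left, hE₂, hSN', hF₂, hq'⟩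
    simp only at hcard
    have hle : F₁ ≤ F' := le_sup_left
    have heq : F₁ = F' := Subgroup.eq_of_le_of_card_ge hle (by omega)
    refine Cfsg.Agent.Lib.Core.CoprimeMap.mem_normalizer_of_forall_conj_mem fun y hy => ?_
    rw [heq]
    exact Subgroup.mem_sup_right (conj_mem_conj hy)
  -- `F₁` normalizes `F₂`
  have h12 : F₁ ≤ Subgroup.normalizer (F₂ : Set G) := by
    intro y hy
    have hyH := hF₁H hy
    set F' := F₂ ⊔ MulAut.conj y • F₂ with hF'
    have hSN' : SN F' H := hF₂.sup (hconj hF₂ hyH)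
    have h1 : MulAut.conj y • F₂ ≤ Subgroup.centralizer (W : Set G) := by
      intro z' hz'
      rw [mem_conj] at hz'
      refine Subgroup.mem_centralizer_iff.mpr fun u hu => ?_
      have hyW : y⁻¹ ∈ Subgroup.normalizer (W : Set G) :=
        Subgroup.inv_mem _ (Cfsg.Agent.Lib.Coprime.Action.le_normalizer_commutator_right V F₁ hy)
      have hu' : y⁻¹ * u * y ∈ W := by
        have := (Subgroup.mem_normalizer_iff.mp hyW u).mp hu
        simpa using this
      have hcomm := Subgroup.mem_centralizer_iff.mp (hWC hz') _ hu'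
      calc u * z' = y * ((y⁻¹ * u * y) * (y⁻¹ * z' * y)) * y⁻¹ := by group
        _ = y * ((y⁻¹ * z' * y) * (y⁻¹ * u * y)) * y⁻¹ := by rw [← hcomm]
        _ = _ := by group
    have hq' : ⁅⁅V, F₁⁆, F'⁆ = ⊥ := by
      rw [Subgroup.commutator_eq_bot_iff_le_centralizer, Subgroup.le_centralizer_iff]
      exact sup_le hWC h1
    have hcard := hmax (F₁, F') ⟨hE₁, hE₂.trans le_sup_left, hF₁, hSN', hq'⟩
    simp only at hcard
    have hle : F₂ ≤ F' := le_sup_left
    have heq : F₂ = F' := Subgroup.eq_of_le_of_card_ge hle (by omega)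
    refine Cfsg.Agent.Lib.Core.CoprimeMap.mem_normalizer_of_forall_conj_mem fun z hz => ?_
    rw [heq]
    exact Subgroup.mem_sup_right (conj_mem_conj hz)
  set D := ⁅F₁, F₂⁆ with hD
  have hD1 : D ≤ F₁ := commutator_le_of_le_normalizer h21
  have hD2 : D ≤ F₂ := by
    rw [hD, Subgroup.commutator_comm]
    exact commutator_le_of_le_normalizer h12
  have hDq : ⁅⁅V, D⁆, D⁆ = ⊥ := by
    rw [eq_bot_iff, ← hq]
    exact Subgroup.commutator_mono (Subgroup.commutator_mono le_rfl hD1) hD2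
  have hSND : SN D H := by
    refine SN.trans (SN.of_le_normalizer (hD1.trans le_sup_left) ?_) (hF₁.sup hF₂)
    exact sup_le (Cfsg.Agent.Lib.Coprime.Action.le_normalizer_commutator_left F₁ F₂)
      (Cfsg.Agent.Lib.Coprime.Action.le_normalizer_commutator_right F₁ F₂)
  have := le_pCore_of_SN hV hHV hf (hD1.trans hF₁H) hSND hDq
  exact (Subgroup.commutator_mono hE₁ hE₂).trans this

end Cfsg.Agent.Lib.QuadAct.SubnormalComm
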