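import Cfsg.Agent.Lib.QuadAct.PStable
import Cfsg.Agent.Lib.QuadAct.ZJ
import Cfsg.Agent.Lib.Core.PSolvable

/-!
# Frattini-type factorization: `G = O_{p'}(G) N_G(W(S))` for `p`-separable `G` and `p ≥ 5`
-/

set_option autoImplicit false

open scoped Pointwise

namespace Cfsg.Agent.Lib.QuadAct.WSFrattini

open Cfsg.Agent.Lib.QuadAct.Basic Cfsg.Agent.Lib.QuadAct.Replacement
open Cfsg.Agent.Lib.QuadAct.OmegaZ Cfsg.Agent.Lib.QuadAct.Stable
open Cfsg.Agent.Lib.QuadAct.ZJ Cfsg.Agent.Lib.QuadAct.PStable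
open Cfsg.Agent.Lib.Core.Basic Cfsg.Agent.Lib.Core.PSolvable

universe u

variable {G : Type u} [Group G] [Finite G] {p : ℕ} [Fact p.Prime]

theorem s0627 (hp : 5 ≤ p) (hsep : Cfsg.IsPSolvable p G) (S : Sylow p G) :
    Cfsg.pPrimeCore p G ⊔ Subgroup.normalizer (WS S : Set G) = ⊤ := by
  set O := Cfsg.pPrimeCore p G with hO
  have hOn : O.Normal := inferInstance
  let π : G →* G ⧸ O := QuotientGroup.mk' O
  have hπ : Function.Surjective π := QuotientGroup.mk'_surjective O
  have hker : π.ker = O := QuotientGroup.ker_mk' O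
  have hsep' : Cfsg.IsPSolvable p (G ⧸ O) := isPSolvable_of_surjective π hπ hsep
  have hc : Subgroup.centralizer (Cfsg.pCore p (G ⧸ O) : Set (G ⧸ O)) ≤ Cfsg.pCore p (G ⧸ O) :=
    centralizer_pCore_le_of_isPSolvable hsep' pPrimeCore_quotient_eq_bot
  have hst : Cfsg.IsActionPStable p (G ⧸ O) := s0625 hp hsep'
  let S' : Sylow p (G ⧸ O) := S.mapSurjective hπ
  have hS' : (S' : Subgroup (G ⧸ O)) = (S : Subgroup G).map π := Sylow.coe_mapSurjective hπ S
  have hSO : (S : Subgroup G) ⊓ O = ⊥ :=
    inf_eq_bot_of_isPGroup_of_coprime S.isPGroup' pPrimeCore_coprime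
  -- the isomorphism
  let φ : (S : Subgroup G) →* (S' : Subgroup (G ⧸ O)) :=
    (π.comp (S : Subgroup G).subtype).codRestrict (S' : Subgroup (G ⧸ O)) (fun x => by
      rw [hS']; exact Subgroup.mem_map_of_mem _ x.2)
  have hφi : Function.Injective φ := by
    rw [injective_iff_map_eq_one]
    intro x hx
    have h1 : π (x : G) = 1 := congrArg Subtype.val hx
    have h2 : (x : G) ∈ O := by rw [← hker]; exact h1
    have h3 : (x : G) ∈ (S : Subgroup G) ⊓ O := ⟨x.2, h2⟩
    rw [hSO] at h3
    exact Subtype.ext h3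
  have hφs : Function.Surjective φ := by
    rintro ⟨y, hy⟩
    rw [hS'] at hy
    obtain ⟨x, hx, rfl⟩ := hy
    exact ⟨⟨x, hx⟩, rfl⟩
  let η := MulEquiv.ofBijective φ ⟨hφi, hφs⟩
  have hW : WS S' = (WS S).map π := by
    show (Cfsg.stableNormalClosure p (S' : Subgroup (G ⧸ O))).map (S' : Subgroup (G ⧸ O)).subtype = 
      ((Cfsg.stableNormalClosure p (S : Subgroup G)).map (S : Subgroup G).subtype).map π
    rw [← map_stableNormalClosure η, Subgroup.map_map, Subgroup.map_map]
    rfl
  have hN : ((WS S).map π).Normal := by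
    rw [← hW]; exact stableNormalClosure_normal hst hc S'
  set W := WS S with hWdef
  have hEeq : ((W.map π).comap π) = W ⊔ O := by
    rw [Subgroup.comap_map_eq, hker]
  let E : Subgroup G := W ⊔ O
  have hEn : E.Normal := by
    have := hN.comap π
    rwa [hEeq] at this
  have hWE : W ≤ E := le_sup_left
  have hWO : W ⊓ O = ⊥ := by
    refine le_antisymm ?_ bot_le
    rw [← hSO]
    exact inf_le_inf_right _ (WS_le_sylow S)
  have hcard : Nat.card E = Nat.card W * Nat.card O := by
    have := card_sup_mul_card_inf_of_le_normalizer W O (by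
      rw [Subgroup.normalizer_eq_top_iff.mpr hOn]; exact le_top)
    rw [hWO, Subgroup.card_bot, mul_one] at this
    exact this
  have hWp : IsPGroup p W := S.isPGroup'.to_le (WS_le_sylow S)
  have hP1 : IsPGroup p (W.subgroupOf E) := by
    exact hWp.comap_subtype
  have hcardW : Nat.card (W.subgroupOf E) = Nat.card W := by
    exact Nat.card_congr (Subgroup.subgroupOfEquivOfLe hWE).toEquiv
  have hWpos : 0 < Nat.card W := Nat.card_pos
  have hP2 : ¬ p ∣ (W.subgroupOf E).index := by
    have h1 := (W.subgroupOf E).card_mul_index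
    rw [hcard, hcardW] at h1
    have h2 : (W.subgroupOf E).index = Nat.card O := Nat.eq_of_mul_eq_mul_left hWpos h1
    rw [h2]
    have := pPrimeCore_coprime (p := p) (G := G)
    intro hd
    have h3 := Nat.Coprime.eq_one_of_dvd this.symm hd
    exact (Fact.out : p.Prime).one_lt.ne' h3
  let P : Sylow p E := hP1.toSylow hP2
  have hFr := Sylow.normalizer_sup_eq_top (N := E) P
  have hPm : (P : Subgroup E).map E.subtype = W := by
    show (W.subgroupOf E).map E.subtype = W
    rw [Subgroup.subgroupOf_map_subtype, inf_of_le_left hWE]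
  rw [hPm] at hFr
  refine top_le_iff.mp ?_
  rw [← hFr]
  exact sup_le le_sup_right (sup_le (Subgroup.le_normalizer.trans le_sup_right) le_sup_left)

end Cfsg.Agent.Lib.QuadAct.WSFrattini
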